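import Mathlib

/-!
Joint eigenspaces, monomial systems and graphs in a product of two representations.
-/

set_option autoImplicit false

namespace CL.B43

open Module Submodule

variable {F : Type*} [Field F] {K : Type*} [Group K] {V : Type*} [AddCommGroup V] [Module F V]
  {V' : Type*} [AddCommGroup V'] [Module F V']

theorem rmul (ρ : Representation F K V) (x y : K) (v : V) : ρ (x * y) v = ρ x (ρ y v) := by
  rw [map_mul]; rfl

theorem rone (ρ : Representation F K V) (v : V) : ρ 1 v = v := by rw [map_one]; rfl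

theorem rinv (ρ : Representation F K V) (x : K) (v : V) : ρ x⁻¹ (ρ x v) = v := by
  rw [← rmul, inv_mul_cancel, rone]

theorem rinv' (ρ : Representation F K V) (x : K) (v : V) : ρ x (ρ x⁻¹ v) = v := by
  rw [← rmul, mul_inv_cancel, rone]

theorem rne (ρ : Representation F K V) (x : K) {v : V} (h : v ≠ 0) : ρ x v ≠ 0 := fun e =>
  h (by rw [← rinv ρ x v, e, map_zero])

theorem rcj (ρ : Representation F K V) (x h : K) (v : V) :
    ρ x (ρ h v) = ρ h (ρ (h⁻¹ * x * h) v) := by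
  rw [← rmul, ← rmul]; congr 2; group

theorem rprod (ρ : Representation F K V) (ρ' : Representation F K V') (x : K) (a : V) (b : V') :
    ρ.prod ρ' x (a, b) = (ρ x a, ρ' x b) := rfl

theorem eq_zero_of_neg (h2 : (2 : F) ≠ 0) {v : V} (h : v = -v) : v = 0 := by
  have : (2 : F) • v = 0 := by rw [two_smul]; nth_rw 1 [h]; exact neg_add_cancel v
  exact (smul_eq_zero.1 this).resolve_left h2

/-- joint eigenspace -/
def Ws (ρ : Representation F K V) (L : Set K) (χ : K → F) : Submodule F V where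
  carrier := {v | ∀ x ∈ L, ρ x v = χ x • v}
  zero_mem' := fun x _ => by simp
  add_mem' := fun ha hb x hx => by rw [map_add, ha x hx, hb x hx, smul_add]
  smul_mem' := fun c v hv x hx => by rw [map_smul, hv x hx, smul_comm]

variable {ρ : Representation F K V} {ρ' : Representation F K V'} {L : Set K} {χ ψ : K → F}

theorem mem_Ws {v : V} : v ∈ Ws ρ L χ ↔ ∀ x ∈ L, ρ x v = χ x • v := Iff.rfl

theorem Ws_congr (h : ∀ x ∈ L, χ x = ψ x) : Ws ρ L χ = Ws ρ L ψ := by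
  ext v
  exact forall₂_congr fun x hx => by rw [h x hx]

theorem Ws_mono {L' : Set K} (h : L' ⊆ L) {v : V} (hv : v ∈ Ws ρ L χ) : v ∈ Ws ρ L' χ :=
  fun x hx => hv x (h hx)

theorem Ws_eq {v : V} (h0 : v ≠ 0) (h : v ∈ Ws ρ L χ) (h' : v ∈ Ws ρ L ψ) : ∀ x ∈ L, χ x = ψ x :=
  fun x hx => smul_left_injective F h0 ((h x hx).symm.trans (h' x hx))

theorem Ws_cj {L' : Set K} {h : K} (hL : ∀ x ∈ L', h⁻¹ * x * h ∈ L) {v : V} (hv : v ∈ Ws ρ L χ) :
    ρ h v ∈ Ws ρ L' fun x => χ (h⁻¹ * x * h) := fun x hx => by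
  rw [rcj, hv _ (hL x hx), map_smul]

theorem Ws_prod {a : V} {b : V'} :
    (a, b) ∈ Ws (ρ.prod ρ') L χ ↔ a ∈ Ws ρ L χ ∧ b ∈ Ws ρ' L χ := by
  simp only [mem_Ws, rprod, Prod.smul_mk, Prod.mk.injEq]
  exact ⟨fun h => ⟨fun x hx => (h x hx).1, fun x hx => (h x hx).2⟩,
    fun h x hx => ⟨h.1 x hx, h.2 x hx⟩⟩

/-- components in a sum of joint eigenspaces -/
theorem comp {ι : Sort*} (p : ι → Submodule F V) (χ : ι → K → F) (hp : ∀ i, p i ≤ Ws ρ L (χ i))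
    {v : V} (hv : v ∈ ⨆ i, p i) (h : v ∈ Ws ρ L ψ) {W : Submodule F V}
    (hW : ∀ i, (∀ x ∈ L, χ i x = ψ x) → p i ≤ W) : v ∈ W := by
  let E : (L → F) → Submodule F V := fun φ => ⨅ x : L, End.eigenspace (ρ x : End F V) (φ x)
  have hE : iSupIndep E :=
    iSupIndep.iInf (fun x : L => End.eigenspace (ρ x : End F V)) fun x =>
      End.eigenspaces_iSupIndep (ρ x : End F V)
  have mE : ∀ χ : K → F, Ws ρ L χ = E fun x => χ x := fun χ => by
    ext w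
    simp only [E, mem_iInf, End.mem_eigenspace_iff, mem_Ws, Subtype.forall]
  have h1 : (⨆ i, p i) ≤ (W ⊓ Ws ρ L ψ) ⊔ ⨆ (φ : L → F) (_ : φ ≠ fun x : L => ψ x), E φ := by
      refine iSup_le fun i => ?_
      by_cases e : ∀ x ∈ L, χ i x = ψ x
      · exact le_sup_of_le_left (le_inf (hW i e) ((hp i).trans (Ws_congr e).le))
      · refine le_sup_of_le_right (le_iSup₂_of_le (fun x : L => χ i x) (fun e' => e fun x hx =>
          congrFun e' ⟨x, hx⟩) (mE _ ▸ hp i))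
  obtain ⟨a, ha, b, hb, rfl⟩ := mem_sup.1 (h1 hv)
  have hb' : b ∈ E fun x => ψ x := by
    rw [← mE]; simpa using sub_mem h ha.2
  rw [(disjoint_def.1 (hE fun x : L => ψ x)) b hb' hb, add_zero]
  exact ha.1

/-- a commuting family of involutions is diagonalisable -/
theorem split (h2 : (2 : F) ≠ 0) (hL : L.Finite) {Γ W : Submodule F V}
    (hi : ∀ x ∈ L, ∀ v ∈ Γ, ρ x v ∈ Γ) (hs : ∀ x ∈ L, ∀ v ∈ Γ, ρ x (ρ x v) = v)
    (hc : ∀ x ∈ L, ∀ y ∈ L, ∀ v ∈ Γ, ρ x (ρ y v) = ρ y (ρ x v))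
    (hW : ∀ χ, ∀ v ∈ Γ, v ∈ Ws ρ L χ → v ∈ W) : Γ ≤ W := by
  classical
  have key : ∀ s : Set K, s.Finite → s ⊆ L → ∀ W : Submodule F V,
      (∀ χ, ∀ v ∈ Γ, v ∈ Ws ρ s χ → v ∈ W) → Γ ≤ W := by
    intro s hs'
    induction s, hs' using Set.Finite.induction_on with
    | empty => exact fun _ W h v hv => h 0 v hv fun x hx => hx.elim
    | @insert a s ha _ ih =>
      intro hsub W h
      have haL := hsub (Set.mem_insert _ _)
      refine ih ((Set.subset_insert _ _).trans hsub) W fun χ v hv hw => ?_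
      have k : ∀ ε : F, ε * ε = 1 → v + ε • ρ a v ∈ W := fun ε e => by
        refine h (Function.update χ a ε) _ (add_mem hv (smul_mem _ _ (hi a haL v hv))) ?_
        rintro x (rfl | hx)
        · rw [Function.update_self, map_add, map_smul, hs x haL v hv, smul_add, smul_smul, e,
            one_smul, add_comm]
        · rw [Function.update_of_ne (by rintro rfl; exact ha hx), map_add, map_smul,
            hc x (hsub (Or.inr hx)) a haL v hv, hw x hx, map_smul, smul_add, smul_comm]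
      have := W.smul_mem (2 : F)⁻¹ (add_mem (k 1 (one_mul 1)) (k (-1) (by simp)))
      rwa [one_smul, neg_one_smul, add_add_add_comm, add_neg_cancel, add_zero, ← two_smul F,
        inv_smul_smul₀ h2] at this
  exact key L hL le_rfl W hW

theorem exists_wt (h2 : (2 : F) ≠ 0) (hL : L.Finite) {Γ : Submodule F V}
    (hi : ∀ x ∈ L, ∀ v ∈ Γ, ρ x v ∈ Γ) (hs : ∀ x ∈ L, ∀ v ∈ Γ, ρ x (ρ x v) = v)
    (hc : ∀ x ∈ L, ∀ y ∈ L, ∀ v ∈ Γ, ρ x (ρ y v) = ρ y (ρ x v)) (h0 : Γ ≠ ⊥) :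
    ∃ χ, ∃ v ∈ Γ, v ≠ 0 ∧ v ∈ Ws ρ L χ := by
  by_contra! hn
  exact h0 (eq_bot_iff.2 (split h2 hL hi hs hc fun χ v hv hw =>
    by_contra fun e => hn χ v hv e hw))

/-- dimensions of subspaces of different joint eigenspaces add up -/
theorem sum_le [FiniteDimensional F V] {ι : Type*} (s : Finset ι) (p : ι → Submodule F V)
    (χ : ι → K → F) (hp : ∀ i ∈ s, p i ≤ Ws ρ L (χ i))
    (hd : ∀ i ∈ s, ∀ j ∈ s, (∀ x ∈ L, χ i x = χ j x) → i = j) {Y : Submodule F V}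
    (hY : ∀ i ∈ s, p i ≤ Y) : ∑ i ∈ s, finrank F (p i) ≤ finrank F Y := by
  classical
  refine le_trans ?_ (finrank_mono (iSup₂_le hY : ⨆ i ∈ s, p i ≤ Y))
  clear hY
  induction s using Finset.induction_on with
  | empty => simp
  | insert a s ha ih =>
    have := ih (fun i hi => hp i (Finset.mem_insert_of_mem hi)) fun i hi j hj =>
      hd i (Finset.mem_insert_of_mem hi) j (Finset.mem_insert_of_mem hj)
    have e := finrank_sup_add_finrank_inf_eq (p a) (⨆ i ∈ s, p i)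
    have d : p a ⊓ ⨆ i ∈ s, p i = ⊥ := eq_bot_iff.2 fun v hv =>
      comp (fun i : s => p i) (fun i => χ i) (fun i => hp i (Finset.mem_insert_of_mem i.2))
        (by rw [iSup_subtype]; exact hv.2) (hp a (Finset.mem_insert_self _ _) hv.1) fun i hi =>
          absurd (hd _ (Finset.mem_insert_of_mem i.2) _ (Finset.mem_insert_self _ _) hi ▸ i.2) ha
    rw [d, finrank_bot, add_zero] at e
    rw [Finset.sum_insert ha, Finset.iSup_insert, e]
    omega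

theorem card_le [FiniteDimensional F V] {ι : Type*} (s : Finset ι) (v : ι → V)
    (χ : ι → K → F) (h0 : ∀ i ∈ s, v i ≠ 0) (hp : ∀ i ∈ s, v i ∈ Ws ρ L (χ i))
    (hd : ∀ i ∈ s, ∀ j ∈ s, (∀ x ∈ L, χ i x = χ j x) → i = j) {Y : Submodule F V}
    (hY : ∀ i ∈ s, v i ∈ Y) : s.card ≤ finrank F Y := by
  have := sum_le s (fun i => F ∙ v i) χ (fun i hi => (span_singleton_le_iff_mem _ _).2 (hp i hi)) hd
    fun i hi => (span_singleton_le_iff_mem _ _).2 (hY i hi)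
  rwa [Finset.sum_congr rfl fun i hi => finrank_span_singleton (h0 i hi), ← Finset.card_eq_sum_ones]
    at this

/-- the stabiliser of a subspace -/
def Stb [Finite K] (ρ : Representation F K V) (Γ : Submodule F V) : Subgroup K where
  carrier := {x | ∀ v ∈ Γ, ρ x v ∈ Γ}
  one_mem' := fun v hv => by rwa [rone]
  mul_mem' := fun ha hb v hv => by rw [rmul]; exact ha _ (hb v hv)
  inv_mem' := fun {x} hx v hv => by
    have k : ∀ n : ℕ, ρ (x ^ n) v ∈ Γ := fun n => by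
      induction n with
      | zero => rwa [pow_zero, rone]
      | succ n ih => rw [pow_succ', rmul]; exact hx _ ih
    have := k (orderOf x - 1)
    rwa [show x ^ (orderOf x - 1) = x⁻¹ from eq_inv_of_mul_eq_one_left (by
      rw [← pow_succ, Nat.sub_add_cancel (orderOf_pos x), pow_orderOf_eq_one])] at this

/-- the span of an orbit -/
def Sp (ρ : Representation F K V) (H : Subgroup K) (m : V) : Submodule F V :=
  ⨆ h : H, F ∙ ρ h m

variable {H : Subgroup K} {m : V}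

theorem mem_Sp {h : K} (hh : h ∈ H) : ρ h m ∈ Sp ρ H m :=
  mem_iSup_of_mem (⟨h, hh⟩ : H) (mem_span_singleton_self _)

theorem self_mem_Sp : m ∈ Sp ρ H m := by simpa [rone] using mem_Sp (ρ := ρ) (m := m) H.one_mem

theorem Sp_le {W : Submodule F V} (h : ∀ x ∈ H, ρ x m ∈ W) : Sp ρ H m ≤ W :=
  iSup_le fun x => (span_singleton_le_iff_mem _ _).2 (h x x.2)

theorem Sp_map {g : K} {W : Submodule F V} (h : ∀ x ∈ H, ρ g (ρ x m) ∈ W) :
    ∀ v ∈ Sp ρ H m, ρ g v ∈ W := Sp_le (W := W.comap (ρ g)) h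

theorem Sp_inv {g : K} (hg : g ∈ H) : ∀ v ∈ Sp ρ H m, ρ g v ∈ Sp ρ H m :=
  Sp_map fun x hx => by rw [← rmul]; exact mem_Sp (mul_mem hg hx)

/-- joint eigenvectors in the span of an orbit -/
theorem Sp_wt (hn : ∀ h ∈ H, ∀ x ∈ L, h⁻¹ * x * h ∈ L) (hm : m ∈ Ws ρ L χ)
    (hs : ∀ h ∈ H, (∀ x ∈ L, χ (h⁻¹ * x * h) = χ x) → ∃ c : F, ρ h m = c • m) {w : V}
    (hw : w ∈ Sp ρ H m) (hψ : w ∈ Ws ρ L ψ) : ∃ h ∈ H, ∃ c : F, w = c • ρ h m := by
  have k := fun W => comp (ψ := ψ) (W := W) (fun h : H => F ∙ ρ h m) (fun h x => χ (h.1⁻¹ * x * h))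
    (fun h => (span_singleton_le_iff_mem _ _).2 (Ws_cj (hn h h.2) hm)) hw hψ
  by_cases e : ∃ h ∈ H, ∀ x ∈ L, χ (h⁻¹ * x * h) = ψ x
  · obtain ⟨h, hh, e⟩ := e
    obtain ⟨c, hc⟩ := mem_span_singleton.1 (k (F ∙ ρ h m) fun y hy => by
      obtain ⟨c, hc⟩ := hs (h⁻¹ * y) (mul_mem (inv_mem hh) y.2) fun x hx => by
        have a := hn h⁻¹ (inv_mem hh) x hx
        have := (hy _ a).trans (e _ a).symm
        convert this using 2 <;> group
      rw [span_singleton_le_iff_mem, ← mul_inv_cancel_left h y, rmul, hc, map_smul]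
      exact smul_mem _ _ (mem_span_singleton_self _))
    exact ⟨h, hh, c, hc.symm⟩
  · exact ⟨1, one_mem _, 0, by
      rw [zero_smul]; exact k ⊥ fun y hy => absurd ⟨y, y.2, hy⟩ e⟩

/-- a monomial system: `H` permutes the lines which are the joint eigenspaces of `L` in `Y` -/
structure MS (ρ : Representation F K V) (H : Subgroup K) (L : Set K) (χ : K → F)
    (Y : Submodule F V) (v : V) : Prop where
  sub : ∀ x ∈ L, x ∈ H
  norm : ∀ h ∈ H, ∀ x ∈ L, h⁻¹ * x * h ∈ L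
  ne : v ≠ 0
  mem : v ∈ Y
  wt : v ∈ Ws ρ L χ
  inv : ∀ h ∈ H, ∀ w ∈ Y, ρ h w ∈ Y
  sq : ∀ x ∈ L, ∀ w ∈ Y, ρ x (ρ x w) = w
  cm : ∀ x ∈ L, ∀ y ∈ L, ∀ w ∈ Y, ρ x (ρ y w) = ρ y (ρ x w)
  occ : ∀ ψ, ∀ w ∈ Y, w ∈ Ws ρ L ψ → w ≠ 0 → ∃ h ∈ H, ∀ x ∈ L, ψ x = χ (h⁻¹ * x * h)
  line : ∀ w ∈ Y, w ∈ Ws ρ L χ → ∃ c : F, w = c • v

/-- graph-like subspaces -/
def Gr (Γ : Submodule F (V × V')) : Prop := ∀ a b, (a, b) ∈ Γ → (a = 0 ↔ b = 0)

theorem Gr.mono {Γ Γ' : Submodule F (V × V')} (h : Gr Γ) (hl : Γ' ≤ Γ) : Gr Γ' :=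
  fun a b e => h a b (hl e)

/-- scaling of the second factor -/
def sc (c : F) : V × V' →ₗ[F] V × V' := LinearMap.id.prodMap (c • LinearMap.id)

theorem sc_apply (c : F) (a : V) (b : V') : sc c (a, b) = (a, c • b) := rfl

theorem sc_comm (c : F) (x : K) (w : V × V') : ρ.prod ρ' x (sc c w) = sc c (ρ.prod ρ' x w) := by
  obtain ⟨a, b⟩ := w
  rw [sc_apply, rprod, rprod, sc_apply, map_smul]

namespace MS

variable {Y : Submodule F V} {Y' : Submodule F V'} {v : V} {v' : V'}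

theorem smul (M : MS ρ H L χ Y v) {c : F} (hc : c ≠ 0) : MS ρ H L χ Y (c • v) :=
  { M with
    ne := smul_ne_zero hc M.ne
    mem := smul_mem _ _ M.mem
    wt := smul_mem _ _ M.wt
    line := fun w hw e => let ⟨d, hd⟩ := M.line w hw e
      ⟨d * c⁻¹, by rw [mul_smul, inv_smul_smul₀ hc, hd]⟩ }

theorem of_line (M : MS ρ H L χ Y v) {w : V} (h0 : w ≠ 0) (hw : w ∈ Y) (e : w ∈ Ws ρ L χ) :
    MS ρ H L χ Y w := by
  obtain ⟨c, rfl⟩ := M.line w hw e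
  exact M.smul fun e => h0 (by rw [e, zero_smul])

theorem line' (M : MS ρ H L χ Y v) {h : K} (hh : h ∈ H) {w : V} (hw : w ∈ Y) (e : w ∈ Ws ρ L ψ)
    (hψ : ∀ x ∈ L, ψ x = χ (h⁻¹ * x * h)) : ∃ c : F, w = c • ρ h v := by
  obtain ⟨c, hc⟩ := M.line (ρ h⁻¹ w) (M.inv _ (inv_mem hh) w hw) (by
    have := Ws_cj (M.norm _ (inv_mem hh)) e
    rwa [Ws_congr (ψ := χ) fun x hx => by
      rw [hψ _ (M.norm _ (inv_mem hh) x hx)]; congr 1; group] at this)
  exact ⟨c, by rw [← map_smul, ← hc, rinv']⟩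

theorem one (M : MS ρ H L χ Y v) {w : V} (hw : w ∈ Y) (e : w ∈ Ws ρ L ψ) :
    ∃ h ∈ H, ∃ c : F, w = c • ρ h v := by
  by_cases h0 : w = 0
  · exact ⟨1, one_mem _, 0, by rw [h0, zero_smul]⟩
  · obtain ⟨h, hh, e'⟩ := M.occ ψ w hw e h0
    exact ⟨h, hh, M.line' hh hw e e'⟩

variable (M : MS ρ H L χ Y v) (M' : MS ρ' H L χ Y' v')
include M M'

theorem pair {w : V × V'} (hw : w ∈ Y.prod Y') (e : w ∈ Ws (ρ.prod ρ') L ψ) :
    ∃ h ∈ H, ∃ α β : F, w = ρ.prod ρ' h (α • v, β • v') := by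
  obtain ⟨a, b⟩ := w
  rw [Ws_prod] at e
  have k : ∀ h ∈ H, (∀ x ∈ L, ψ x = χ (h⁻¹ * x * h)) →
      ∃ h ∈ H, ∃ α β : F, (a, b) = ρ.prod ρ' h (α • v, β • v') := fun h hh e' => by
    obtain ⟨α, ha⟩ := M.line' hh hw.1 e.1 e'
    obtain ⟨β, hb⟩ := M'.line' hh hw.2 e.2 e'
    exact ⟨h, hh, α, β, by rw [rprod, map_smul, map_smul, ← ha, ← hb]⟩
  by_cases ha : a = 0
  · by_cases hb : b = 0
    · exact ⟨1, one_mem _, 0, 0, by simp [ha, hb]⟩
    · obtain ⟨h, hh, e'⟩ := M'.occ ψ b hw.2 e.2 hb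
      exact k h hh e'
  · obtain ⟨h, hh, e'⟩ := M.occ ψ a hw.1 e.1 ha
    exact k h hh e'

theorem split (h2 : (2 : F) ≠ 0) [Finite K] {Γ W : Submodule F (V × V')} (hY : Γ ≤ Y.prod Y')
    (hi : ∀ x ∈ L, ∀ w ∈ Γ, ρ.prod ρ' x w ∈ Γ)
    (hW : ∀ χ, ∀ w ∈ Γ, w ∈ Ws (ρ.prod ρ') L χ → w ∈ W) : Γ ≤ W :=
  B43.split h2 (Set.toFinite L) hi
    (fun x hx _ hw => Prod.ext (M.sq x hx _ (hY hw).1) (M'.sq x hx _ (hY hw).2))
    (fun x hx y hy _ hw => Prod.ext (M.cm x hx y hy _ (hY hw).1) (M'.cm x hx y hy _ (hY hw).2)) hW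

theorem Sp_le_prod : Sp (ρ.prod ρ') H (v, v') ≤ Y.prod Y' :=
  Sp_le fun h hh => ⟨M.inv h hh _ M.mem, M'.inv h hh _ M'.mem⟩

/-- invariant graphs -/
theorem mono (h2 : (2 : F) ≠ 0) [Finite K] {Γ : Submodule F (V × V')} (hY : Γ ≤ Y.prod Y')
    (hi : ∀ h ∈ H, ∀ w ∈ Γ, ρ.prod ρ' h w ∈ Γ) (hG : Gr Γ) (h0 : Γ ≠ ⊥) :
    ∃ c : F, c ≠ 0 ∧ Γ = (Sp (ρ.prod ρ') H (v, v')).map (sc c) := by
  have hiL := fun x hx => hi x (M.sub x hx)
  obtain ⟨c, hc, hm⟩ : ∃ c : F, c ≠ 0 ∧ (v, c • v') ∈ Γ := by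
    by_contra! hn
    refine h0 (eq_bot_iff.2 (M.split M' h2 hY hiL fun ψ w hw e => ?_))
    obtain ⟨h, hh, α, β, rfl⟩ := M.pair M' (hY hw) e
    have a := hi _ (inv_mem hh) _ hw
    rw [rinv] at a
    have b := hG _ _ a
    by_cases hα : α = 0
    · rw [mem_bot, hα, zero_smul, b.1 (by rw [hα, zero_smul])]; exact map_zero _
    · have hβ : β ≠ 0 := fun e => smul_ne_zero hα M.ne (b.2 (by rw [e, zero_smul]))
      refine absurd ?_ (hn (α⁻¹ * β) (mul_ne_zero (inv_ne_zero hα) hβ))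
      simpa [smul_smul, hα] using Γ.smul_mem α⁻¹ a
  refine ⟨c, hc, le_antisymm (M.split M' h2 hY hiL fun ψ w hw e => ?_)
    (map_le_iff_le_comap.2 (Sp_le fun h hh => ?_))⟩
  · obtain ⟨h, hh, α, β, rfl⟩ := M.pair M' (hY hw) e
    have a := hi _ (inv_mem hh) _ hw
    rw [rinv] at a
    have b := (hG _ _ (sub_mem a (Γ.smul_mem α hm))).1 (sub_self _)
    refine ⟨_, smul_mem _ α (mem_Sp hh), ?_⟩
    rw [map_smul, ← sc_comm, ← map_smul, sc_apply,
      show β • v' = α • c • v' from sub_eq_zero.1 b]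
    rfl
  · rw [mem_comap, ← sc_comm]
    exact hi h hh _ hm

theorem gr (h2 : (2 : F) ≠ 0) [Finite K]
    (hs : ∀ h ∈ H, (∀ x ∈ L, χ (h⁻¹ * x * h) = χ x) →
      ∃ c : F, ρ.prod ρ' h (v, v') = c • (v, v')) : Gr (Sp (ρ.prod ρ') H (v, v')) := by
  have k : ∀ Z : Submodule F (V × V'), (∀ x, ∀ w ∈ Z, ρ.prod ρ' x w ∈ Z) → (v, v') ∉ Z →
      Sp (ρ.prod ρ') H (v, v') ⊓ Z ≤ ⊥ := fun Z hZ hn =>
    M.split M' h2 (inf_le_left.trans (M.Sp_le_prod M'))
      (fun x hx w hw => ⟨Sp_inv (M.sub x hx) w hw.1, hZ x w hw.2⟩) fun ψ w hw e => by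
        obtain ⟨h, hh, c, rfl⟩ := Sp_wt M.norm (Ws_prod.2 ⟨M.wt, M'.wt⟩) hs hw.1 e
        by_cases hc : c = 0
        · rw [hc, zero_smul]; exact zero_mem _
        · have := hZ h⁻¹ _ (Z.smul_mem c⁻¹ hw.2)
          rw [inv_smul_smul₀ hc, rinv] at this
          exact absurd this hn
  intro a b e
  constructor
  · intro ha
    exact congrArg Prod.snd (k ((⊥ : Submodule F V).prod ⊤)
      (fun x w hw => ⟨by show ρ x w.1 = 0; rw [show w.1 = 0 from hw.1, map_zero], trivial⟩)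
      (fun e => M.ne e.1) ⟨e, ha, trivial⟩ :)
  · intro hb
    exact congrArg Prod.fst (k ((⊤ : Submodule F V).prod ⊥)
      (fun x w hw => ⟨trivial, by show ρ' x w.2 = 0; rw [show w.2 = 0 from hw.2, map_zero]⟩)
      (fun e => M'.ne e.2) ⟨e, trivial, hb⟩ :)

/-- an element which normalises the system scales the graph -/
theorem scal (h2 : (2 : F) ≠ 0) [Finite K] (hG : Gr (Sp (ρ.prod ρ') H (v, v'))) {g : K}
    (hg : ∀ h ∈ H, g⁻¹ * h * g ∈ H) (hY : ∀ w ∈ Y, ρ g w ∈ Y) (hY' : ∀ w ∈ Y', ρ' g w ∈ Y') :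
    ∃ c : F, c ≠ 0 ∧ (Sp (ρ.prod ρ') H (v, v')).map (ρ.prod ρ' g) =
      (Sp (ρ.prod ρ') H (v, v')).map (sc c) := by
  refine M.mono M' h2 ?_ ?_ ?_ fun e => ?_
  · rintro _ ⟨w, hw, rfl⟩
    exact ⟨hY _ (M.Sp_le_prod M' hw).1, hY' _ (M.Sp_le_prod M' hw).2⟩
  · rintro h hh _ ⟨w, hw, rfl⟩
    exact ⟨_, Sp_inv (hg h hh) w hw, (rcj _ _ _ _).symm⟩
  · rintro a b ⟨⟨a', b'⟩, hw, e⟩
    rw [rprod] at e
    obtain ⟨rfl, rfl⟩ := Prod.mk.inj e
    have := hG _ _ hw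
    exact ⟨fun e => by rw [this.1 (by_contra fun n => rne ρ g n e), map_zero],
      fun e => by rw [this.2 (by_contra fun n => rne ρ' g n e), map_zero]⟩
  · exact rne ρ g M.ne (congrArg Prod.fst ((Submodule.eq_bot_iff _).1 e _ ⟨_, self_mem_Sp, rfl⟩))

end MS

section scal

variable [Finite K] {Γ : Submodule F (V × V')}

theorem map_Stb {D : Type*} [AddCommGroup D] [Module F D] {σ : Representation F K D}
    {Γ : Submodule F D} {x : K} (h : x ∈ Stb σ Γ) : Γ.map (σ x) = Γ :=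
  le_antisymm (map_le_iff_le_comap.2 h) fun w hw => ⟨_, (inv_mem h :) w hw, rinv' _ _ _⟩

omit [Finite K] in
theorem map_sc (x : K) (c : F) :
    (Γ.map (sc c)).map (ρ.prod ρ' x) = (Γ.map (ρ.prod ρ' x)).map (sc c) := by
  rw [← map_comp, ← map_comp]
  congr 1
  exact LinearMap.ext fun w => sc_comm c x w

omit [Finite K] in
theorem map_mul' {D : Type*} [AddCommGroup D] [Module F D] {σ : Representation F K D}
    (Γ : Submodule F D) (x y : K) : Γ.map (σ (x * y)) = (Γ.map (σ y)).map (σ x) := by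
  rw [← map_comp, map_mul]; rfl

theorem conj_mem_Stb {g x : K} {c : F} (hg : Γ.map (ρ.prod ρ' g⁻¹) = Γ.map (sc c))
    (hx : x ∈ Stb (ρ.prod ρ') Γ) : g * x * g⁻¹ ∈ Stb (ρ.prod ρ') Γ := by
  refine map_le_iff_le_comap.1 (le_of_eq ?_)
  rw [map_mul', map_mul', hg, map_sc, map_Stb hx, ← hg, ← map_mul', mul_inv_cancel, map_one]
  exact map_id _

theorem braid {g q a : K} {c : F} (hc : c ≠ 0) (hg : Γ.map (ρ.prod ρ' g) = Γ.map (sc c))
    (hq : q ∈ Stb (ρ.prod ρ') Γ) (ha : a ∈ Stb (ρ.prod ρ') Γ)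
    (e : g * q * g⁻¹ = q⁻¹ * g * q * a) : g ∈ Stb (ρ.prod ρ') Γ := by
  have e1 : g * q = q⁻¹ * g * q * a * g := by rw [← e]; group
  have h1 := congrArg (fun x => Γ.map (ρ.prod ρ' x)) e1
  simp only [map_mul', map_Stb hq, hg, map_sc, map_Stb ha, map_Stb (inv_mem hq)] at h1
  have h3 : Function.Injective (sc c : V × V' →ₗ[F] V × V') := fun ⟨a, b⟩ ⟨a', b'⟩ e => by
    obtain ⟨e1, e2⟩ := Prod.mk.inj e
    exact Prod.ext e1 (smul_right_injective _ hc e2)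
  exact map_le_iff_le_comap.1 (hg.trans (map_injective_of_injective h3 h1).symm).le

end scal

/-- a perfect group fixes every invariant line pointwise -/
theorem fix_of_perfect {G : Type*} [Group G] (hG : commutator G = ⊤) (φ : G →* K) {v : V}
    (h : ∀ x, ∃ c : F, ρ (φ x) v = c • v) (x : G) : ρ (φ x) v = v := by
  let N : Subgroup G :=
    { carrier := {x | ρ (φ x) v = v}
      one_mem' := by show ρ (φ 1) v = v; rw [map_one, rone]
      mul_mem' := fun {a b} ha hb => by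
        show ρ (φ (a * b)) v = v
        rw [map_mul, rmul, show ρ (φ b) v = v from hb]; exact ha
      inv_mem' := fun {a} ha => by
        show ρ (φ a⁻¹) v = v
        nth_rw 1 [← show ρ (φ a) v = v from ha]
        rw [map_inv, rinv] }
  have : commutator G ≤ N := Subgroup.commutator_le.2 fun a _ b _ => by
    show ρ (φ (a * b * a⁻¹ * b⁻¹)) v = v
    obtain ⟨c, hc⟩ := h a⁻¹
    obtain ⟨d, hd⟩ := h b⁻¹
    have e : ρ (φ a⁻¹) (ρ (φ b⁻¹) v) = ρ (φ b⁻¹) (ρ (φ a⁻¹) v) := by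
      rw [hc, hd, map_smul, map_smul, hc, hd, smul_comm]
    rw [map_mul φ, map_mul φ, map_mul φ, rmul, rmul, rmul, e, map_inv φ, map_inv φ, rinv', rinv']
  exact this (hG ▸ Subgroup.mem_top x)

/-- irreducibility -/
def Irr (ρ : Representation F K V) : Prop :=
  ∀ W : Submodule F V, (∀ x, ∀ v ∈ W, ρ x v ∈ W) → W = ⊥ ∨ W = ⊤

theorem goursat (h : Irr ρ) (h' : Irr ρ') {Γ : Submodule F (V × V')}
    (hi : ∀ x, ∀ w ∈ Γ, ρ.prod ρ' x w ∈ Γ) {v : V} {v' : V'} (hv : v ≠ 0) (hv' : v' ≠ 0)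
    (hm : (v, v') ∈ Γ) (hn : (v, (0 : V')) ∉ Γ) :
    ∃ e : V ≃ₗ[F] V', ∀ x w, e (ρ x w) = ρ' x (e w) := by
  have a1 : Γ.comap (LinearMap.inl F V V') = ⊥ :=
    (h _ fun x w hw => by simpa [rprod] using hi x _ hw).resolve_right fun e =>
      hn (e.ge mem_top : v ∈ Γ.comap _)
  have a2 : Γ.comap (LinearMap.inr F V V') = ⊥ :=
    (h' _ fun x w hw => by simpa [rprod] using hi x _ hw).resolve_right fun e =>
      hn (by simpa using sub_mem hm (e.ge mem_top : v' ∈ Γ.comap _))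
  have a3 : Γ.map (LinearMap.fst F V V') = ⊤ :=
    (h _ (by rintro x _ ⟨w, hw, rfl⟩; exact ⟨_, hi x w hw, rfl⟩)).resolve_left fun e =>
      hv ((Submodule.eq_bot_iff _).1 e v ⟨_, hm, rfl⟩)
  have a4 : Γ.map (LinearMap.snd F V V') = ⊤ :=
    (h' _ (by rintro x _ ⟨w, hw, rfl⟩; exact ⟨_, hi x w hw, rfl⟩)).resolve_left fun e =>
      hv' ((Submodule.eq_bot_iff _).1 e v' ⟨_, hm, rfl⟩)
  obtain ⟨e, he⟩ := Submodule.exists_equiv_eq_graph (G := Γ)
    ⟨fun a b e => Subtype.ext (Prod.ext e (sub_eq_zero.1 ((Submodule.eq_bot_iff _).1 a2 _ (by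
        have := sub_mem a.2 b.2
        rwa [show a.1 - b.1 = (0, a.1.2 - b.1.2) from Prod.ext (sub_eq_zero.2 e) rfl] at this)))),
      fun w => let ⟨y, hy, e⟩ := (a3.ge mem_top : w ∈ Γ.map _); ⟨⟨y, hy⟩, e⟩⟩
    ⟨fun a b e => Subtype.ext (Prod.ext (sub_eq_zero.1 ((Submodule.eq_bot_iff _).1 a1 _ (by
        have := sub_mem a.2 b.2
        rwa [show a.1 - b.1 = (a.1.1 - b.1.1, 0) from Prod.ext rfl (sub_eq_zero.2 e)] at this))) e),
      fun w => let ⟨y, hy, e⟩ := (a4.ge mem_top : w ∈ Γ.map _); ⟨⟨y, hy⟩, e⟩⟩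
  refine ⟨e, fun x w => ?_⟩
  have := hi x (w, e w) (by rw [he]; exact rfl)
  rw [he] at this
  exact Eq.symm this

end CL.B43
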