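import Cfsg.Agent.SPOR.B43.Lat3
import Cfsg.Agent.SPOR.B43.LinA

/-!
Representations of the stabiliser of a minimal vector with a monomial restriction of degree 22.
-/

set_option autoImplicit false
set_option maxRecDepth 100000

namespace CL.B43

open Cfsg Cfsg.Spor CL.Leech CL.MT MulAction Module Submodule
open CL.Golay (E isCw)

local notation "u" => leechU

variable {F : Type*} [Field F]

section gen

variable {K : Type*} [Group K] {V : Type*} [AddCommGroup V] [Module F V] {ρ : Representation F K V}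
  {L : Set K} {χ : K → F} {g : K} {v : V}

theorem Ws_of {ψ : K → F} (hv : v ∈ Ws ρ L χ) (h : ∀ x ∈ L, χ x = ψ x) : v ∈ Ws ρ L ψ :=
  fun x hx => h x hx ▸ hv x hx

theorem Ws_comm (h : ∀ x ∈ L, g * x = x * g) (hv : v ∈ Ws ρ L χ) : ρ g v ∈ Ws ρ L χ := fun x hx => by
  rw [← rmul, ← h x hx, rmul, hv x hx, map_smul]

/-- the sum of the nontrivial joint eigenspaces -/
def NT (ρ : Representation F K V) (L : Set K) : Submodule F V :=
  ⨆ ψ : {ψ : K → F // ¬ ∀ x ∈ L, ψ x = 1}, Ws ρ L ψ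

theorem mem_NT (h : ¬ ∀ x ∈ L, χ x = 1) (hv : v ∈ Ws ρ L χ) : v ∈ NT ρ L :=
  mem_iSup_of_mem ⟨χ, h⟩ hv

theorem NT_inv (h : ∀ x ∈ L, g⁻¹ * x * g ∈ L) (h' : ∀ x ∈ L, g * x * g⁻¹ ∈ L) :
    ∀ v ∈ NT ρ L, ρ g v ∈ NT ρ L :=
  (iSup_le fun ψ v hv => mem_NT (fun e => ψ.2 fun x hx => by simpa [mul_assoc] using e _ (h' x hx))
    (Ws_cj h hv) : NT ρ L ≤ (NT ρ L).comap (ρ g))

theorem NT_fix (h : v ∈ NT ρ L) (h' : v ∈ Ws ρ L fun _ => 1) : v = 0 :=
  comp (W := ⊥) _ _ (fun _ => le_rfl) h h' fun ψ e => absurd e ψ.2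

theorem sup_map {A B W : Submodule F V} (hA : ∀ v ∈ A, ρ g v ∈ W) (hB : ∀ v ∈ B, ρ g v ∈ W) :
    ∀ v ∈ A ⊔ B, ρ g v ∈ W :=
  fun _ hv => sup_le (show A ≤ W.comap (ρ g) from hA) (show B ≤ W.comap (ρ g) from hB) hv

theorem span_map {W : Submodule F V} (h : ρ g v ∈ W) : ∀ w ∈ F ∙ v, ρ g w ∈ W :=
  fun _ hw => (span_singleton_le_iff_mem v (W.comap (ρ g))).2 h hw

theorem half_mem (h2 : (2 : F) ≠ 0) {W : Submodule F V} {a b : V} (h : a + b ∈ W) (h' : a - b ∈ W) :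
    a ∈ W ∧ b ∈ W := by
  have k : ∀ c, c + c ∈ W → c ∈ W := fun c e => by
    have := W.smul_mem (2 : F)⁻¹ e
    rwa [← two_smul F, inv_smul_smul₀ h2] at this
  exact ⟨k a (by convert add_mem h h' using 1; abel), k b (by convert sub_mem h h' using 1; abel)⟩

end gen

open Classical in
/-- the sign of a coordinate -/
noncomputable def lam (F : Type*) [Field F] (i : GolayPt) (k : Co0) : F :=
  if k • e8 i = e8 i then 1 else -1

variable {i j : GolayPt}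

theorem lam_cj {n : Co0} (h : Ix n i j) (ε : Co0) : lam F i (n⁻¹ * ε * n) = lam F j ε := by
  unfold lam
  congr 1
  rw [mul_smul, mul_smul, inv_smul_eq_iff]
  rcases h with e | e <;> simp [e, smul_neg]

theorem lam_pos {ε : Co0} (h : ε • e8 i = e8 i) : lam F i ε = 1 := if_pos h

theorem lam_neg {ε : Co0} (h : ε • e8 i = -e8 i) : lam F i ε = -1 :=
  if_neg fun e => e8_ne_neg _ _ (e.symm.trans h)

theorem lam_sg {m : ℕ} (h : isCw m = true) : lam F i (sg m) = cond (m.testBit (E.enc i)) (-1) 1 := by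
  have := sg_e8 h i
  cases e : m.testBit (E.enc i) <;> rw [e] at this
  exacts [lam_pos (by simpa using this), lam_neg (by simpa using this)]

theorem cond_inj (h2 : (2 : F) ≠ 0) {a b : Bool} (h : cond a (-1 : F) 1 = cond b (-1) 1) : a = b := by
  have : (1 : F) ≠ -1 := fun e => one_ne_zero (eq_zero_of_neg h2 e)
  cases a <;> cases b <;> simp_all [eq_comm]

/-- the stabiliser of the minimal vector -/
abbrev S : Subgroup Co0 := stabilizer Co0 u

/-- its sign changes -/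
def ES : Set S := {ε | (ε : Co0) ∈ Sgn}

/-- the sign changes which are diagonal in the second frame too -/
def OS : Set S := {ε | (ε : Co0) ∈ Sgn ∧ kk * ε * kk ∈ Sgn}

/-- the stabiliser of the two frames -/
noncomputable def HS : Subgroup S := (St (e8 none) ⊓ St ww).subgroupOf S

/-- the monomial elements -/
abbrev NS : Subgroup S := NV.subgroupOf S

/-- the characters -/
noncomputable abbrev lm (F : Type*) [Field F] (i : GolayPt) (k : S) : F := lam F i k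

noncomputable abbrev eK : S := ⟨kk, kk_u⟩
noncomputable abbrev eD : S := ⟨sD, sD_u⟩
noncomputable abbrev eT : S := ⟨sT, sT_u⟩
noncomputable abbrev eS : S := ⟨ss, ss_u⟩
noncomputable abbrev eP {σ : M24} (h1 : σ.1 none = none) (h2 : σ.1 (some 0) = some 0) : S :=
  ⟨permHom σ, perm_u h1 h2⟩

theorem eK_sq : eK * eK = 1 := Subtype.ext kk_sq
theorem eK_inv : eK⁻¹ = eK := Subtype.ext kk_inv
theorem eS_eq : eS = eK * eD * eK := rfl
theorem ES_sq {ε : S} (h : ε ∈ ES) : ε * ε = 1 := Subtype.ext (Sgn_sq h)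
theorem ES_comm {ε δ : S} (h : ε ∈ ES) (h' : δ ∈ ES) : ε * δ = δ * ε := Subtype.ext (Sgn_comm h h')
theorem ES_cj {n ε : S} (hn : n ∈ NS) (h : ε ∈ ES) : n⁻¹ * ε * n ∈ ES := Sgn_cj hn.1 h
theorem ES_NS {ε : S} (h : ε ∈ ES) : ε ∈ NS := ⟨Sgn_le_NN h, ε.2⟩
theorem eP_NS {σ : M24} (h1 : σ.1 none = none) (h2 : σ.1 (some 0) = some 0) : eP h1 h2 ∈ NS :=
  ⟨permHom_mem_NN σ, perm_u h1 h2⟩
theorem eP_ix {σ : M24} (h : σ.1 i = j) : Ix (permHom σ) i j := Or.inl (h ▸ permHom_e8 σ i)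
theorem eS_sq : eS * eS = 1 := by
  rw [eS_eq, mul_assoc, ← mul_assoc eK (eK * eD), ← mul_assoc eK eK, eK_sq, one_mul, mul_assoc,
    ← mul_assoc eD, ES_sq (ε := eD) (sg_mem _), one_mul, eK_sq]
theorem HS_NS : HS ≤ NS := fun h hh => ⟨St_e8 none ▸ hh.1, h.2⟩

theorem HS_cj {h : S} (hh : h ∈ HS) : eK⁻¹ * h * eK ∈ HS := by
  rw [eK_inv]
  refine ⟨(?_ : Cong ((kk * h * kk) • _) _), (?_ : Cong ((kk * h * kk) • _) _)⟩ <;>
    rw [mul_smul, mul_smul]
  · rw [kk_c]; exact kk_w ▸ Cong.smul hh.2 kk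
  · rw [kk_w]; exact kk_c ▸ Cong.smul hh.1 kk

theorem OS_K {o : S} (h : o ∈ OS) : eK * o * eK ∈ OS :=
  ⟨h.2, by
    show kk * (kk * o * kk) * kk ∈ Sgn
    rw [← mul_assoc, ← mul_assoc, kk_sq, one_mul, mul_assoc, kk_sq, mul_one]; exact h.1⟩

theorem OS_cj {h o : S} (hh : h ∈ HS) (ho : o ∈ OS) : h⁻¹ * o * h ∈ OS :=
  ⟨Sgn_cj (HS_NS hh).1 ho.1, by
    have : (kk⁻¹ * h * kk)⁻¹ * (kk * o * kk) * (kk⁻¹ * h * kk) ∈ Sgn :=
      Sgn_cj (HS_NS (HS_cj hh)).1 ho.2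
    have c : ∀ x, kk * (kk * x) = x := fun x => by rw [← mul_assoc, kk_sq, one_mul]
    simpa only [Subgroup.coe_mul, Subgroup.coe_inv, kk_inv, mul_inv_rev, mul_assoc, c] using this⟩

theorem OS_fix {o : S} (ho : o ∈ OS) (h : i = some 2 ∨ i = some 3) : lm F i o = 1 := by
  have := (fix_cd ho.2 (mul_mem (mul_mem eK.2 o.2) eK.2)).1
  rw [mul_smul, mul_smul, kk_c, ← kk_w, smul_left_cancel_iff] at this
  exact lam_pos (fix_of_coord ho.1 this (by rcases h with rfl | rfl <;> decide +kernel))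

theorem O_mem {m : ℕ} (hm : m ∈ [190626, 1265762, 3216208, 5129250]) :
    ∃ h : sg m • u = u, (⟨sg m, h⟩ : S) ∈ OS ∧ eK * ⟨sg m, h⟩ = ⟨sg m, h⟩ * eK :=
  ⟨sg_u (by revert m; decide +kernel), ⟨sg_mem m, (kk_O m hm).2.symm ▸ sg_mem m⟩, Subtype.ext (by
    show kk * sg m = sg m * kk
    nth_rw 2 [← (kk_O m hm).2]
    rw [mul_assoc, kk_sq, mul_one])⟩

theorem mem_HS {h : S} (h1 : (h : Co0) • e8 none = e8 none) (h2 : (h : Co0) • ww = ww) : h ∈ HS :=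
  ⟨by show Cong ((h : Co0) • _) _; rw [h1]; exact Cong.refl _,
    by show Cong ((h : Co0) • _) _; rw [h2]; exact Cong.refl _⟩

theorem eP_HS {σ : M24} (h1 : σ.1 none = none) (h2 : σ.1 (some 0) = some 0)
    (h3 : σ.1 (some 2) = some 2) (h4 : σ.1 (some 3) = some 3) : eP h1 h2 ∈ HS :=
  have p : ∀ j, σ.1 j = j → permHom σ • e8 j = e8 j := fun j e => by rw [permHom_e8, e]
  mem_HS (p _ h1) (fix_ww (p _ h1) (p _ h2) (p _ h3) (p _ h4))

theorem lm_inj (h2 : (2 : F) ≠ 0) (hi : i ≠ some 0) (hj : j ≠ some 0)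
    (e : ∀ ε ∈ ES, lm F i ε = lm F j ε) : i = j := by
  have k : ∀ m ∈ [31554, 78514, 168928, 267634, 567074, 1084018, 2141072, 4202192, 72588, 36294],
      m.testBit (E.enc i) = m.testBit (E.enc j) := fun m hm => by
    have : isCw m = true ∧ m.testBit 23 = false ∧ m.testBit 0 = false := by
      revert m; decide +kernel
    exact cond_inj h2 ((lam_sg this.1).symm.trans
      ((e ⟨_, sg_u this⟩ (sg_mem m)).trans (lam_sg this.1)))
  clear e
  revert i j; decide +kernel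

theorem NS_dec {n : S} (hn : n ∈ NS) : ∃ ε ∈ ES, ∃ (σ : M24) (h1 : σ.1 none = none)
    (h2 : σ.1 (some 0) = some 0), (n = ε * eP h1 h2 ∨ n = ε * eP h1 h2 * eS) ∧
      (Ix n (some 1) (some 1) → σ.1 (some 1) = some 1) := by
  rcases NV_cd hn with e | e
  · obtain ⟨ε, hε, hu, σ, h1, h2, h3, h4⟩ := exists_dec hn e.1
    exact ⟨⟨ε, hu⟩, hε, σ, h1, h2, Or.inl (Subtype.ext h3), h4 _ _⟩
  · obtain ⟨ε, hε, hu, σ, h1, h2, h3, h4⟩ := exists_dec (mul_mem hn ss_NV)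
      (by rw [mul_smul, ss_act.1, e.2])
    refine ⟨⟨ε, hu⟩, hε, σ, h1, h2, Or.inr ?_, fun h => h4 _ _ (h.mul (Or.inl ss_act.2.2.1))⟩
    rw [← show n * eS = ⟨ε, hu⟩ * eP h1 h2 from Subtype.ext h3, mul_assoc, eS_sq, mul_one]

variable {U : Type*} [AddCommGroup U] [Module F U] {U' : Type*} [AddCommGroup U'] [Module F U']
  {τ : Representation F S U} {τ' : Representation F S U'} {f w : U} {f' : U'}

/-- the monomial structure -/
structure HU (τ : Representation F S U) (f : U) : Prop where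
  ne : f ≠ 0
  wt : f ∈ Ws τ ES (lm F (some 1))
  line : ∀ w ∈ Ws τ ES (lm F (some 1)), ∃ c : F, w = c • f
  occ : ∀ ψ, ∀ w ∈ Ws τ ES ψ, w ≠ 0 → (∀ ε ∈ ES, ψ ε = 1) ∨
    ∃ n ∈ NS, ∀ ε ∈ ES, ψ ε = lm F (some 1) (n⁻¹ * ε * n)

theorem wt_ix {n : S} (hn : n ∈ NS) (h : Ix n i j) (hw : w ∈ Ws τ ES (lm F i)) :
    τ n w ∈ Ws τ ES (lm F j) :=
  Ws_of (Ws_cj (fun _ => ES_cj hn) hw) fun ε _ => lam_cj h ε

theorem ES_inv {L : Set S} {χ : S → F} (hL : L ⊆ ES) : ∀ x ∈ ES, ∀ v ∈ Ws τ L χ, τ x v ∈ Ws τ L χ :=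
  fun _ hx _ => Ws_comm fun _ hy => ES_comm hx (hL hy)

theorem lm_none {ε : S} (h : ε ∈ ES) : lm F none ε = 1 := lam_pos (fix_cd h ε.2).1

theorem fix22 (h : ∀ n ∈ NS, ∃ c : F, τ n w = c • w) {σ : M24} (h1 : σ.1 none = none)
    (h2 : σ.1 (some 0) = some 0) : τ (eP h1 h2) w = w :=
  fix_of_perfect perfect22 ((permHom.comp (Subgroup.subtype _)).codRestrict S fun x => perm_u x.2.1 x.2.2)
    (fun x => h _ (eP_NS x.2.1 x.2.2)) ⟨σ, h1, h2⟩

theorem scal_of {n : S} {ε : S} {σ : M24} {h1 : σ.1 none = none} {h2 : σ.1 (some 0) = some 0}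
    (h : n = ε * eP h1 h2 ∨ n = ε * eP h1 h2 * eS) {a b : F} (e1 : τ ε w = a • w)
    (e2 : τ (eP h1 h2) w = w) (e3 : τ eS w = b • w) : ∃ c : F, τ n w = c • w := by
  rcases h with rfl | rfl
  · exact ⟨a, by rw [rmul, e2, e1]⟩
  · exact ⟨b * a, by rw [rmul, rmul, e3, map_smul, map_smul, e2, e1, smul_smul]⟩

namespace HU

variable (H : HU τ f) (h2 : (2 : F) ≠ 0)
include H

theorem line' {n : S} (hn : n ∈ NS) (h : Ix n (some 1) i) (hw : w ∈ Ws τ ES (lm F i)) :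
    ∃ c : F, w = c • τ n f := by
  obtain ⟨c, hc⟩ := H.line _ (wt_ix (inv_mem hn) h.inv hw)
  exact ⟨c, by rw [← map_smul, ← hc, rinv']⟩

theorem fix21 {σ : M24} (h1 : σ.1 none = none) (h2 : σ.1 (some 0) = some 0)
    (h3 : σ.1 (some 1) = some 1) : τ (eP h1 h2) f = f :=
  fix_of_perfect perfect21
    ((permHom.comp (Subgroup.subtype _)).codRestrict S fun x => perm_u x.2.1.1 x.2.1.2)
    (fun x => H.line _ (wt_ix (eP_NS x.2.1.1 x.2.1.2) (eP_ix x.2.2) H.wt)) ⟨σ, ⟨h1, h2⟩, h3⟩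

include h2

theorem split {Γ W : Submodule F U} (hi : ∀ x ∈ ES, ∀ v ∈ Γ, τ x v ∈ Γ)
    (hW : ∀ i, i ≠ some 0 → ∀ v ∈ Γ, v ≠ 0 → v ∈ Ws τ ES (lm F i) → v ∈ W) : Γ ≤ W := by
  refine B43.split h2 (Set.toFinite ES) hi (fun x hx v _ => by rw [← rmul, ES_sq hx, rone])
    (fun x hx y hy v _ => by rw [← rmul, ES_comm hx hy, rmul]) fun ψ v hv e => ?_
  by_cases h0 : v = 0
  · exact h0 ▸ zero_mem _
  rcases H.occ ψ v e h0 with h | ⟨n, hn, h⟩
  · exact hW none (by simp) v hv h0 (Ws_of e fun ε hε => (h ε hε).trans (lm_none hε).symm)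
  · obtain ⟨i, hi⟩ := exists_ix hn.1 (some 1)
    exact hW i (hi.gd hn (by simp) (by decide)).2 v hv h0
      (Ws_of e fun ε hε => (h ε hε).trans (lam_cj hi ε))

theorem s_f : τ eS f = f := by
  obtain ⟨a1, a2, a3⟩ := O_mem (m := 190626) (by simp)
  obtain ⟨b1, b2, b3⟩ := O_mem (m := 1265762) (by simp)
  have hL : ({⟨_, a1⟩, ⟨_, b1⟩} : Set S) ⊆ ES := by rintro _ (rfl | rfl); exacts [a2.1, b2.1]
  have h1 : Ws τ {⟨_, a1⟩, ⟨_, b1⟩} (fun _ => -1) ≤ Ws τ {eD} fun _ => 1 :=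
    H.split h2 (ES_inv hL) fun i _ v hv h0 e => by
      have k := Ws_eq h0 (Ws_mono hL e) hv
      have k1 := cond_inj h2 (b := true) ((lam_sg (by decide +kernel)).symm.trans (k _ (Or.inl rfl)))
      have k2 := cond_inj h2 (b := true) ((lam_sg (by decide +kernel)).symm.trans (k _ (Or.inr rfl)))
      rintro _ rfl
      rw [e _ (sg_mem _), lm, lam_sg (by decide +kernel), (by decide +kernel : ∀ i : GolayPt,
        Nat.testBit 190626 (E.enc i) = true → Nat.testBit 1265762 (E.enc i) = true →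
          Nat.testBit 72588 (E.enc i) = false) i k1 k2]
      rfl
  have h3 := h1 (Ws_comm (g := eK) (by rintro _ (rfl | rfl); exacts [a3, b3])
    (Ws_of (Ws_mono hL H.wt) (by rintro _ (rfl | rfl) <;> exact lam_sg (by decide +kernel)))) eD rfl
  rw [eS_eq, rmul, rmul, h3, one_smul, ← rmul, eK_sq, rone]

omit H in
theorem fixO {v : U} (h : v ∈ Ws τ OS fun _ => 1) (h0 : v ≠ 0) (e : v ∈ Ws τ ES (lm F i)) :
    i = none ∨ i = some 0 ∨ i = some 2 ∨ i = some 3 := by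
  have k : ∀ m ∈ [190626, 1265762, 3216208, 5129250], m.testBit (E.enc i) = false := fun m hm =>
    let ⟨_, a, _⟩ := O_mem hm
    cond_inj h2 ((lam_sg (kk_O m hm).1).symm.trans (Ws_eq h0 (Ws_mono (fun _ h => h.1) e) h _ a))
  clear e
  revert i; decide +kernel

variable {σ : M24} {h1 : σ.1 none = none} {h3 : σ.1 (some 0) = some 0} (h4 : σ.1 (some 1) = some 2)
include h4

omit h2 in
theorem wt_x : τ (eP h1 h3) f ∈ Ws τ ES (lm F (some 2)) ∧
    τ eS (τ (eP h1 h3) f) ∈ Ws τ ES (lm F (some 3)) :=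
  have := wt_ix (eP_NS h1 h3) (eP_ix h4) H.wt
  ⟨this, wt_ix ss_NV (Or.inr ss_act.2.2.2) this⟩

omit h2 in
theorem T_x : τ eT (τ (eP h1 h3) f + τ eS (τ (eP h1 h3) f)) =
    -(τ (eP h1 h3) f - τ eS (τ (eP h1 h3) f)) := by
  rw [map_add, (H.wt_x h4).1 _ (sg_mem _), (H.wt_x h4).2 _ (sg_mem _), lm, lm,
    lam_sg (by decide +kernel), lam_sg (by decide +kernel), neg_sub, add_comm, sub_eq_add_neg]
  exact congrArg₂ _ (one_smul _ _) (neg_one_smul _ _)

theorem kn : τ eK (τ (eP h1 h3) f + τ eS (τ (eP h1 h3) f)) ≠ 0 ∧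
    τ eK (τ (eP h1 h3) f + τ eS (τ (eP h1 h3) f)) ∈ Ws τ ES (lm F none) ∧
    τ eS (τ eK (τ (eP h1 h3) f + τ eS (τ (eP h1 h3) f))) =
      (-1 : F) • τ eK (τ (eP h1 h3) f + τ eS (τ (eP h1 h3) f)) := by
  have a := H.wt_x (h1 := h1) (h3 := h3) h4
  have b := H.T_x (h1 := h1) (h3 := h3) h4
  have n := rne τ (eP h1 h3) H.ne
  generalize τ (eP h1 h3) f = x at a b n
  have c : ∀ y, eK * (eK * y) = y := fun y => by rw [← mul_assoc, eK_sq, one_mul]
  refine ⟨rne _ _ fun e => n (eq_zero_of_neg h2 ?_), ?_, ?_⟩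
  · rw [e, map_zero, eq_comm, neg_eq_zero, sub_eq_zero] at b
    rw [← b] at e
    exact eq_neg_of_add_eq_zero_left e
  · refine H.split h2 (Γ := Ws τ OS (fun _ => 1) ⊓ Ws τ {eD} fun _ => 1)
      (fun x hx v hv => ⟨ES_inv (fun _ h => h.1) x hx v hv.1,
        ES_inv (by rintro _ rfl; exact sg_mem _) x hx v hv.2⟩) (fun i hi v hv h0 e => ?_) ⟨?_, ?_⟩
    · have k := cond_inj h2 (b := false) ((lam_sg (by decide +kernel)).symm.trans
        (Ws_eq h0 (Ws_mono (L' := {eD}) (by rintro _ rfl; exact sg_mem _) e) hv.2 eD rfl))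
      rcases fixO h2 hv.1 h0 e with rfl | rfl | rfl | rfl
      exacts [e, absurd rfl hi, absurd k (by decide +kernel), absurd k (by decide +kernel)]
    · refine Ws_cj (χ := fun _ => 1) (L := OS) (fun o ho => by rw [eK_inv]; exact OS_K ho) fun o ho => ?_
      rw [map_add, a.1 o ho.1, a.2 o ho.1, OS_fix ho (Or.inl rfl), OS_fix ho (Or.inr rfl), smul_add]
    · rintro _ rfl
      rw [one_smul, ← rmul, ← c (eD * eK), ← mul_assoc eK eD, ← eS_eq, rmul, map_add, ← rmul τ eS,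
        eS_sq, rone, add_comm]
  · rw [← rmul, show eS * eK = eK * eD by rw [eS_eq, mul_assoc, eK_sq, mul_one], rmul, map_add,
      a.1 _ (sg_mem _), a.2 _ (sg_mem _),
      lm, lm, lam_sg (by decide +kernel), lam_sg (by decide +kernel), ← map_smul (τ eK), smul_add]
    rfl

end HU

theorem HU.dim [FiniteDimensional F U] (H : HU τ f) (h2 : (2 : F) ≠ 0) :
    finrank F (Ws τ ES (lm F none)) + 22 ≤ finrank F U := by
  classical
  have h1 := sum_le (ρ := τ) (L := ES) (Finset.univ.erase (some 0)) (fun i => Ws τ ES (lm F i))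
    (lm F) (fun _ _ => le_rfl) (fun i hi j hj =>
      lm_inj h2 (Finset.ne_of_mem_erase hi) (Finset.ne_of_mem_erase hj)) (Y := ⊤) fun _ _ => le_top
  rw [finrank_top, ← Finset.add_sum_erase _ _ (a := none) (by simp)] at h1
  refine le_trans (Nat.add_le_add_left ?_ _) h1
  refine le_trans (by decide) (Finset.card_nsmul_le_sum _ _ 1 fun i hi => ?_)
  obtain ⟨σ, a, b, c⟩ := exists_perm3 (Finset.ne_of_mem_erase hi)
    (Finset.ne_of_mem_erase (Finset.mem_of_mem_erase hi))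
  exact Nat.one_le_iff_ne_zero.2 fun e => rne τ _ H.ne ((Submodule.eq_bot_iff _).1
    (Submodule.finrank_eq_zero.1 e) _ (wt_ix (eP_NS a b) (eP_ix c) H.wt))

theorem HU.dim23 [FiniteDimensional F U] (H : HU τ f) (h2 : (2 : F) ≠ 0) : 23 ≤ finrank F U := by
  obtain ⟨σ, a, b, c⟩ := exists_perm3 (i := some 2) (by simp) (by decide)
  have h := H.kn h2 (h1 := a) (h3 := b) c
  have := H.dim h2
  have : finrank F (Ws τ ES (lm F none)) ≠ 0 := fun e => h.1 ((Submodule.eq_bot_iff _).1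
    (Submodule.finrank_eq_zero.1 e) _ h.2.1)
  omega

theorem HU.fix_a [FiniteDimensional F U] (H : HU τ f) (h2 : (2 : F) ≠ 0) (hd : finrank F U ≤ 23)
    (hw : w ∈ Ws τ ES (lm F none)) {σ : M24} (h1 : σ.1 none = none) (h3 : σ.1 (some 0) = some 0) :
    τ (eP h1 h3) w = w := by
  by_cases h0 : w = 0
  · rw [h0, map_zero]
  have := H.dim h2
  obtain ⟨v, hv⟩ := finrank_le_one_iff.1 (by omega : finrank F (Ws τ ES (lm F none)) ≤ 1)
  refine fix22 (fun n hn => ?_) h1 h3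
  obtain ⟨c, hc⟩ := hv ⟨w, hw⟩
  obtain ⟨d, hd⟩ := hv ⟨τ n w, Ws_of (Ws_cj (fun _ => ES_cj hn) hw) fun ε hε =>
    (lm_none (ES_cj hn hε)).trans (lm_none hε).symm⟩
  have hc : c • v.1 = w := congrArg Subtype.val hc
  have c0 : c ≠ 0 := fun e => h0 (by rw [← hc, e, zero_smul])
  exact ⟨d * c⁻¹, by rw [mul_smul, ← hc, inv_smul_smul₀ c0, hc]; exact (congrArg Subtype.val hd).symm⟩

theorem HU.ms (H : HU τ f) (h2 : (2 : F) ≠ 0) :
    MS τ HS (ES ∩ HS) (lm F (some 1)) (NT τ OS) f := by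
  have hO : OS ⊆ ES := fun _ h => h.1
  have hi : ∀ ψ, ∀ x ∈ ES, ∀ v ∈ NT τ OS ⊓ Ws τ (ES ∩ HS) ψ, τ x v ∈ NT τ OS ⊓ Ws τ (ES ∩ HS) ψ :=
    fun ψ x hx v hv => ⟨NT_inv (fun o ho => by rwa [mul_assoc, ES_comm (hO ho) hx, inv_mul_cancel_left])
      (fun o ho => by rwa [ES_comm hx (hO ho), mul_inv_cancel_right]) v hv.1,
      ES_inv Set.inter_subset_left x hx v hv.2⟩
  have k : ∀ i, ∀ v ∈ NT τ OS, v ≠ 0 → v ∈ Ws τ ES (lm F i) → i ≠ none ∧ i ≠ some 2 ∧ i ≠ some 3 :=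
    fun i v hv h0 e => by
      refine ⟨?_, ?_, ?_⟩ <;> rintro rfl <;> refine h0 (NT_fix hv (Ws_of (Ws_mono hO e) fun o ho => ?_))
      exacts [lm_none ho.1, OS_fix ho (Or.inl rfl), OS_fix ho (Or.inr rfl)]
  refine ⟨fun _ h => h.2, fun h hh x hx => ⟨ES_cj (HS_NS hh) hx.1,
    mul_mem (mul_mem (inv_mem hh) hx.2) hh⟩, H.ne, mem_NT (fun e => ?_) (Ws_mono hO H.wt),
    Ws_mono Set.inter_subset_left H.wt, fun h hh => NT_inv (fun _ => OS_cj hh) fun o ho => ?_,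
    fun x hx v _ => by rw [← rmul, ES_sq hx.1, rone],
    fun x hx y hy v _ => by rw [← rmul, ES_comm hx.1 hy.1, rmul], fun ψ w hw e h0 => ?_,
    fun w hw e => ?_⟩
  · obtain ⟨_, a, _⟩ := O_mem (m := 190626) (by simp)
    exact absurd (cond_inj h2 (b := false) ((lam_sg (by decide +kernel)).symm.trans (e _ a)))
      (by decide +kernel)
  · simpa using OS_cj (inv_mem hh) ho
  · by_contra hn
    refine h0 (H.split h2 (W := ⊥) (hi ψ) (fun i hi v hv h0 e => absurd ?_ hn) ⟨hw, e⟩)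
    obtain ⟨a1, a2, a3⟩ := k i v hv.1 h0 e
    obtain ⟨σ, b1, b2, b3, b4, b5⟩ := exists_perm5 a1 hi a2 a3
    exact ⟨eP b1 b2, eP_HS b1 b2 b3 b4, fun x hx =>
      (Ws_eq h0 hv.2 (Ws_mono Set.inter_subset_left e) x hx).trans (lam_cj (eP_ix b5) x).symm⟩
  · obtain ⟨c, hc⟩ := mem_span_singleton.1 (H.split h2 (W := F ∙ f) (hi _) (fun i hi v hv h0 e => by
      obtain ⟨a1, a2, a3⟩ := k i v hv.1 h0 e
      have q : ∀ m ∈ [31554, 78514, 168928, 267634, 567074, 1084018, 2141072, 4202192],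
          m.testBit (E.enc i) = m.testBit 1 := fun m hm => by
        have : (isCw m = true ∧ m.testBit 23 = false ∧ m.testBit 0 = false) ∧
            m.testBit 2 = false ∧ m.testBit 3 = false := by revert m; decide +kernel
        have p : ∀ j, m.testBit (E.enc j) = false → sg m • e8 j = e8 j := fun j e => by
          rw [sg_e8 this.1.1, e]; rfl
        exact cond_inj h2 ((lam_sg this.1.1).symm.trans ((Ws_eq h0 (Ws_mono Set.inter_subset_left e) hv.2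
          ⟨_, sg_u this.1⟩ ⟨sg_mem m, mem_HS (p _ this.1.2.1) (fix_ww (p _ this.1.2.1) (p _ this.1.2.2)
            (p _ this.2.1) (p _ this.2.2))⟩).trans (lam_sg this.1.1)))
      obtain rfl : i = some 1 := by
        clear e
        revert i; decide +kernel
      obtain ⟨c, rfl⟩ := H.line v e
      exact smul_mem _ _ (mem_span_singleton_self _)) ⟨hw, e⟩)
    exact ⟨c, hc.symm⟩

theorem st1 (H : HU τ f) (H' : HU τ' f') (h2 : (2 : F) ≠ 0) {n : S} (hn : n ∈ NS)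
    (h : Ix n (some 1) (some 1)) : ∃ c : F, τ.prod τ' n (f, f') = c • (f, f') := by
  obtain ⟨ε, hε, σ, h1, h3, e, h4⟩ := NS_dec hn
  exact scal_of (b := 1) e (Ws_prod.2 ⟨H.wt, H'.wt⟩ ε hε)
    (Prod.ext (H.fix21 h1 h3 (h4 h)) (H'.fix21 h1 h3 (h4 h)))
    (by rw [one_smul]; exact Prod.ext (H.s_f h2) (H'.s_f h2))

theorem st2 (H : HU τ f) (H' : HU τ' f') (h2 : (2 : F) ≠ 0) {n k : S} (hn : n ∈ NS) (hk : k ∈ NS)
    (h : Ix n (some 1) i) (h' : Ix k (some 1) i) :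
    ∃ c : F, τ.prod τ' n (f, f') = c • τ.prod τ' k (f, f') := by
  obtain ⟨c, hc⟩ := st1 H H' h2 (mul_mem (inv_mem hk) hn) (h'.inv.mul h)
  exact ⟨c, by rw [← map_smul, ← hc, rmul, rinv']⟩

/-- the graph of an isomorphism of two modules of dimension 23 -/
theorem co2b [FiniteDimensional F U] [FiniteDimensional F U'] (H : HU τ f) (H' : HU τ' f')
    (h2 : (2 : F) ≠ 0) (hd : finrank F U ≤ 23) (hd' : finrank F U' ≤ 23) :
    ∃ w ∈ Ws (τ.prod τ') ES (lm F none), ∀ k, ∀ v ∈ (F ∙ w) ⊔ Sp (τ.prod τ') NS (f, f'),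
      τ.prod τ' k v ∈ (F ∙ w) ⊔ Sp (τ.prod τ') NS (f, f') := by
  obtain ⟨σ, h1, h3, h4⟩ := exists_perm3 (i := some 2) (by simp) (by decide)
  have a := H.kn h2 (h1 := h1) (h3 := h3) h4
  have a' := H'.kn h2 (h1 := h1) (h3 := h3) h4
  set π := τ.prod τ'
  set x := π (eP h1 h3) (f, f') with hx
  set w := π eK (x + π eS x) with hw
  have w1 : w ∈ Ws π ES (lm F none) := Ws_prod.2 ⟨a.2.1, a'.2.1⟩
  have xm : x ∈ Sp π NS (f, f') := mem_Sp (eP_NS h1 h3)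
  have xp := add_mem xm (Sp_inv (g := eS) ss_NV _ xm)
  have M := H.ms h2
  have M' := H'.ms h2
  have G : Gr (Sp π HS (f, f')) := M.gr M' h2 fun h hh e => by
    obtain ⟨j, hj⟩ := exists_ix (HS_NS hh).1 (some 1)
    obtain ⟨c, hc⟩ := M.line _ (M.inv h hh _ M.mem) (Ws_of (Ws_cj (M.norm h hh) M.wt) e)
    refine st1 H H' h2 (HS_NS hh) ?_
    rwa [lm_inj h2 (hj.gd (HS_NS hh) (by simp) (by decide)).2 (j := some 1) (by decide)
      (Ws_eq (rne τ h H.ne) (wt_ix (HS_NS hh) hj H.wt) (hc ▸ smul_mem _ _ H.wt))] at hj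
  have aH : eT * eK * (eT * eK) * (eT * eK) ∈ HS := mem_HS aa_act.1 aa_act.2
  have cK : ∀ y, eK * (eK * y) = y := fun y => by rw [← mul_assoc, eK_sq, one_mul]
  have cT : ∀ y, eT * (eT * y) = y := fun y => by rw [← mul_assoc, ES_sq (ε := eT) (sg_mem _), one_mul]
  have Ti : eT⁻¹ = eT := inv_eq_of_mul_eq_one_right (ES_sq (sg_mem _))
  obtain ⟨c, c0, hc⟩ := M.scal M' h2 G (g := eK) (fun _ => HS_cj)
    (NT_inv (fun o ho => by rw [eK_inv]; exact OS_K ho) fun o ho => by rw [eK_inv]; exact OS_K ho)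
    (NT_inv (fun o ho => by rw [eK_inv]; exact OS_K ho) fun o ho => by rw [eK_inv]; exact OS_K ho)
  have kS := braid c0 hc (q := eT) (Sp_map fun h hh => by
      rw [rcj, Ws_prod.2 ⟨H.wt, H'.wt⟩ _ (ES_cj (HS_NS hh) (sg_mem _)), map_smul]
      exact smul_mem _ _ (mem_Sp hh)) (Sp_inv aH) (by simp only [Ti, eK_inv, mul_assoc, cK, cT])
  have hL : ∀ k ∈ S, k ∈ (Stb π ((F ∙ w) ⊔ Sp π NS (f, f'))).map S.subtype := by
    have q : ∀ k : S, π k w ∈ (F ∙ w) ⊔ Sp π NS (f, f') → (∀ n ∈ NS, π k (π n (f, f')) ∈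
        (F ∙ w) ⊔ Sp π NS (f, f')) → k.1 ∈ (Stb π ((F ∙ w) ⊔ Sp π NS (f, f'))).map S.subtype :=
      fun k e e' => ⟨k, sup_map (span_map e) (Sp_map e'), rfl⟩
    refine gen_S (fun n hn => q ⟨n, hn.2⟩ ?_ fun m hm => ?_) (Subgroup.map_subtype_le _)
      (q eK ?_ fun n hn => ?_)
    · obtain ⟨ε, hε, ρ, b1, b2, e, -⟩ := NS_dec (n := ⟨n, hn.2⟩) hn
      obtain ⟨c, hc⟩ := scal_of e (w1 ε hε) (Prod.ext (H.fix_a h2 hd a.2.1 b1 b2)
        (H'.fix_a h2 hd' a'.2.1 b1 b2)) (Prod.ext a.2.2 a'.2.2)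
      exact mem_sup_left (hc ▸ smul_mem _ _ (mem_span_singleton_self _))
    · exact mem_sup_right (Sp_inv (g := ⟨n, hn.2⟩) hn _ (mem_Sp hm))
    · rw [show π eK w = _ by rw [hw, ← rmul π eK, eK_sq, rone]]; exact mem_sup_right xp
    · have b : π eK x + π eK (π eS x) ∈ (F ∙ w) ⊔ Sp π NS (f, f') :=
        map_add (π eK) _ _ ▸ mem_sup_left (mem_span_singleton_self _)
      have b' : π eK x - π eK (π eS x) ∈ (F ∙ w) ⊔ Sp π NS (f, f') := by
        have t : π eT (x + π eS x) = -(x - π eS x) := Prod.ext (H.T_x h4) (H'.T_x h4)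
        have t' : π eT w = w := by rw [w1 eT (sg_mem _), lm_none (ε := eT) (sg_mem _), one_smul]
        rw [← map_sub, ← neg_neg (x - _), ← t, map_neg, ← rmul, show eK * eT =
          (eT * eK * (eT * eK) * (eT * eK))⁻¹ * eT * eK * eT * eK by
            simp only [mul_inv_rev, Ti, eK_inv, mul_assoc, cT, eK_sq, mul_one],
          rmul, ← hw, rmul, t', rmul, hw, ← rmul π eK, eK_sq, rone]
        exact neg_mem (mem_sup_right (Sp_inv (mul_mem (inv_mem (HS_NS aH)) (ES_NS (sg_mem _))) _ xp))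
      obtain ⟨j, hj⟩ := exists_ix hn.1 (some 1)
      obtain ⟨j1, j2⟩ := hj.gd hn (by simp) (by decide)
      by_cases j3 : j = some 2
      · obtain ⟨c, hc⟩ := st2 H H' h2 hn (eP_NS h1 h3) hj (j3 ▸ eP_ix h4)
        rw [hc, map_smul]; exact smul_mem _ _ (half_mem h2 b b').1
      by_cases j4 : j = some 3
      · obtain ⟨c, hc⟩ := st2 H H' h2 hn (mul_mem (show eS ∈ NS from ss_NV) (eP_NS h1 h3)) hj
          (j4 ▸ Ix.mul (Or.inr ss_act.2.2.2) (eP_ix h4))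
        rw [hc, map_smul, rmul]; exact smul_mem _ _ (half_mem h2 b b').2
      obtain ⟨ρ, b1, b2, b3, b4, b5⟩ := exists_perm5 j1 j2 j3 j4
      obtain ⟨c, hc⟩ := st2 H H' h2 hn (eP_NS b1 b2) hj (eP_ix b5)
      rw [hc, map_smul]
      exact smul_mem _ _ (mem_sup_right (Sp_le (fun h hh => mem_Sp (HS_NS hh)) (kS _ (mem_Sp
        (eP_HS b1 b2 b3 b4)))))
  refine ⟨w, w1, fun k => ?_⟩
  obtain ⟨k', hk, e⟩ := hL k k.2
  exact Subtype.ext e ▸ hk

end CL.B43
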