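import Cfsg.Agent.SPOR.Y5.LatB
import Cfsg.Agent.SPOR.Y5.PerpU

/-!
Classes of the Leech lattice modulo two and a minimal vector.
-/

set_option autoImplicit false
set_option maxRecDepth 100000

namespace CL.B43

open Cfsg Cfsg.Spor CL.Leech CL.MT CL.K CL.Pack MulAction

local notation "Λ" => leechLattice
local notation "u" => leechU

/-- even inner product -/
def Ev (x y : Λ) : Prop := (16 : ℤ) ∣ dotInt (x : GolayPt → ℤ) y

variable {x y v w : Λ} {k : Co0}

theorem ev_comm : Ev x y ↔ Ev y x := by rw [Ev, Ev, dot_comm]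

theorem ev_add : Ev (x + y) v ↔ (Ev x v ↔ Ev y v) := by
  have h1 := eight_dvd_dot x.2 v.2
  have h2 := eight_dvd_dot y.2 v.2
  simp only [Ev, AddSubgroup.coe_add, dot_add_left]
  omega

theorem ev_sub : Ev (x - y) v ↔ (Ev x v ↔ Ev y v) := by
  have h1 := eight_dvd_dot x.2 v.2
  have h2 := eight_dvd_dot y.2 v.2
  simp only [Ev, AddSubgroup.coe_sub, dot_sub_left]
  omega

theorem ev_add' : Ev x (v + w) ↔ (Ev x v ↔ Ev x w) := by simp only [ev_comm (x := x), ev_add]

theorem ev_sub' : Ev x (v - w) ↔ (Ev x v ↔ Ev x w) := by simp only [ev_comm (x := x), ev_sub]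

theorem ev_zero : Ev 0 v := by simp [Ev, dot_zero_left]

theorem ev_smul (k : Co0) : Ev (k • x) (k • y) ↔ Ev x y := by rw [Ev, dot_smul, Ev]

theorem ev_inv : Ev (k • x) y ↔ Ev x (k⁻¹ • y) := by rw [← ev_smul k (x := x), smul_inv_smul]

theorem ev_fix (h : k • u = u) : Ev u (k • x) ↔ Ev u x := by rw [← ev_smul k (y := x), h]

theorem ev_cong (h : Cong x y) : Ev x v ↔ Ev y v := by
  have := h.dvd_dot v
  simp only [Ev]
  omega

theorem ev_cong' (h : Cong v w) : Ev x v ↔ Ev x w := by simp only [ev_comm (x := x), ev_cong h]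

theorem cong_of_ev (h : ∀ v, Ev (x - y) v) : Cong x y := by
  obtain ⟨z, hz, e⟩ := exists_half_of_dot (x := ((x - y : Λ) : GolayPt → ℤ)) fun v hv => h ⟨v, hv⟩
  exact ⟨⟨z, hz⟩, Subtype.ext e⟩

theorem dot_u (x : Λ) : dotInt (u : GolayPt → ℤ) x =
    4 * (x : GolayPt → ℤ) none + 4 * (x : GolayPt → ℤ) (some 0) := by
  rw [← v44_zero, coe_v44, dot_add_left, dot_single_left, dot_single_left]

theorem ev_u : Ev u x ↔ (4 : ℤ) ∣ (x : GolayPt → ℤ) none + (x : GolayPt → ℤ) (some 0) := by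
  rw [Ev, dot_u]; omega

theorem ev_e8 {i : GolayPt} : Ev x (e8 i) ↔ (x : GolayPt → ℤ) i % 2 = 0 := by
  rw [Ev, coe_e8, dot_single_right]; omega

theorem ev_uu : Ev u u := ev_u.2 (by decide)

theorem ev_ue (i : GolayPt) : Ev u (e8 i) := ev_e8.2 (by revert i; decide)

theorem par (x : Λ) (i j : GolayPt) : (x : GolayPt → ℤ) i % 2 = (x : GolayPt → ℤ) j % 2 := by
  obtain ⟨m, -, h, -⟩ := (mem_iff' _).1 x.2
  rw [h, h]

theorem cong_e8 (i j : GolayPt) : Cong (e8 i) (e8 j) := by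
  have := e8_sub_e8 i j 1 (Or.inl rfl)
  rwa [one_smul] at this

theorem cong_sub (x y : Λ) : Cong (x - y) (x + y) := ⟨-y, by rw [two_nsmul]; abel⟩

/-- congruence modulo twice the lattice and the minimal vector -/
def Sim (x y : Λ) : Prop := Cong x y ∨ Cong x (y + u)

theorem Sim.ev (h : Sim x y) (hv : Ev u v) : Ev x v ↔ Ev y v := by
  rcases h with h | h
  · exact ev_cong h
  · rw [ev_cong h, ev_add]; tauto

theorem two_cases {δ a v0 : Λ} {p : Λ → Prop} (h0 : ¬ Ev a v0) (ps : ∀ v, p v → p (v - v0)) (h : ∀ v, p v → Ev a v → Ev δ v) :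
    (∀ v, p v → Ev δ v) ∨ ∀ v, p v → Ev (δ - a) v := by
  have k : ∀ v, p v → ¬ Ev a v → (Ev δ v ↔ Ev δ v0) := fun v hv n =>
    ev_sub'.1 (h _ (ps v hv) (ev_sub'.2 (by tauto)))
  by_cases e : Ev δ v0
  · exact Or.inl fun v hv => by_contra fun n => n ((k v hv fun a => n (h v hv a)).2 e)
  · refine Or.inr fun v hv => ev_sub.2 ⟨fun a => by_contra fun n => e ((k v hv n).1 a), h v hv⟩

/-- an odd vector -/
def o3 : Λ := ⟨odd3 none, odd3_mem _⟩

/-- the fixed odd minimal vector -/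
noncomputable def x1 : Λ :=
  lv 0x5801c00e007003802400e009003801c012009003801c012009003802400e0090048024012009 (by decide +kernel)

theorem x1_mem : x1 ∈ Mset u 16 := by unfold Mset; decide +kernel

theorem x1_odd : ¬ Ev x1 (e8 none) := by rw [ev_e8]; decide +kernel

theorem ev_of_mem (h : x ∈ Mset u 16) : Ev u x := by rw [Ev, h.2]

theorem sim_of (h : ∀ v, Ev u v → (Ev x v ↔ Ev y v)) : Sim x y := by
  rcases two_cases (δ := x - y) (a := u) (v0 := o3) (p := fun _ => True) (by rw [ev_u]; decide)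
    (fun _ _ => trivial) fun v _ hv => ev_sub.2 (h v hv) with e | e
  · exact Or.inl (cong_of_ev fun v => e v trivial)
  · exact Or.inr (cong_of_ev fun v => by rw [← sub_sub]; exact e v trivial)

theorem Sim.refl (x : Λ) : Sim x x := Or.inl (Cong.refl x)

theorem Sim.symm (h : Sim x y) : Sim y x := sim_of fun _ hv => (h.ev hv).symm

theorem Sim.trans (h : Sim x y) (h' : Sim y w) : Sim x w :=
  sim_of fun _ hv => (h.ev hv).trans (h'.ev hv)

theorem Sim.smul (h : Sim x y) (hk : k • u = u) : Sim (k • x) (k • y) :=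
  h.imp (·.smul k) fun e => by simpa [smul_add, hk] using e.smul k

theorem Sim.add (h : Sim x y) (h' : Sim v w) : Sim (x + v) (y + w) :=
  sim_of fun _ hv => by rw [ev_add, ev_add, h.ev hv, h'.ev hv]

theorem sim_sub (x : Λ) : Sim (u - x) x := Or.inr ⟨-x, by rw [two_nsmul]; abel⟩

theorem Sim.ev_u (h : Sim x y) : Ev u x ↔ Ev u y := by
  rw [ev_comm, h.ev ev_uu, ev_comm]

theorem sim2 (h : ∀ v, Ev u v → Ev v (e8 none) → (Ev x v ↔ Ev y v)) :
    Sim x y ∨ Sim x (y + e8 none) := by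
  rcases two_cases (δ := x - y) (a := e8 none) (v0 := x1) (p := Ev u) (mt ev_comm.1 x1_odd)
    (fun v hv => ev_sub'.2 (iff_of_true hv (ev_of_mem x1_mem)))
    fun v hv e => ev_sub.2 (h v hv (ev_comm.1 e)) with e | e
  · exact Or.inl (sim_of fun v hv => ev_sub.1 (e v hv))
  · exact Or.inr (sim_of fun v hv => ev_sub.1 (by rw [← sub_sub]; exact e v hv))

theorem sub_mem_M (h : x ∈ Mset u 16) : u - x ∈ Mset u 16 := by
  refine ⟨?_, ?_⟩
  · rw [AddSubgroup.coe_sub, sqNorm_sub, sqNorm_U, h.1, h.2]; norm_num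
  · rw [AddSubgroup.coe_sub, dot_sub_right, ← sqNorm_eq_dot, sqNorm_U, h.2]; norm_num

theorem eq_of_cong_M (hx : x ∈ Mset u 16) (hy : y ∈ Mset u 16) (h : Cong x y) : x = y := by
  rcases h.short (by rw [hx.1]; norm_num) (by rw [hy.1]; norm_num) with e | e | e
  · exact e
  · have := hx.2
    rw [e, AddSubgroup.coe_neg, dot_neg_right, hy.2] at this
    omega
  · have := hx.1; omega

theorem Sim.eq (h : Sim x y) (hx : x ∈ Mset u 16) (hy : y ∈ Mset u 16) : x = y ∨ x = u - y :=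
  h.imp (eq_of_cong_M hx hy) fun e => eq_of_cong_M hx (sub_mem_M hy)
    (e.trans ⟨y, by rw [two_nsmul]; abel⟩)

/-- the classes which occur -/
def OK (x : Λ) : Prop := Sim x 0 ∨ ∃ y ∈ Mset u 16, Sim x y

theorem not_sim0 (hx : x ∈ Mset u 16) : ¬ Sim x 0 := by
  rintro (h | h)
  · have := h.norm_eq (by rw [hx.1]; norm_num) (by simp [sqNorm_zero])
    rw [hx.1] at this
    simp [sqNorm_zero] at this
  · rw [zero_add] at h
    have := hx.2
    rcases h.short (by rw [hx.1]; norm_num) (by rw [sqNorm_U]; norm_num) with e | e | e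
    · rw [e, ← sqNorm_eq_dot, sqNorm_U] at this; omega
    · rw [e, AddSubgroup.coe_neg, dot_neg_right, ← sqNorm_eq_dot, sqNorm_U] at this; omega
    · have := hx.1; omega

theorem not_OK (h : sqNorm (y : GolayPt → ℤ) = 64) (e : Sim x y) : ¬ OK x := by
  have k : ∀ w : Λ, sqNorm (w : GolayPt → ℤ) ≤ 32 → ¬ Cong y w := fun w hw c => by
    have := c.norm_eq h.le (by omega)
    omega
  rintro (a | ⟨w, hw, a⟩) <;> rcases e.symm.trans a with c | c
  · exact k _ (by simp [sqNorm_zero]) c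
  · exact k _ (by rw [zero_add, sqNorm_U]) c
  · exact k _ hw.1.le c
  · exact k _ (sub_mem_M hw).1.le (c.trans ⟨w, by rw [two_nsmul]; abel⟩)

/-- the classes of the vectors with coordinates divisible by four -/
def D4 (v : Λ) : Prop := (∀ i, (v : GolayPt → ℤ) i % 4 = 0) ∨ ∀ i, (v : GolayPt → ℤ) i % 4 = 2

theorem D4.dec (h : D4 v) (o : Λ) (ho : ∀ i, (o : GolayPt → ℤ) i % 2 = 1) :
    ∃ a : Λ, (∀ i, (a : GolayPt → ℤ) i % 4 = 0) ∧ (a = v ∨ a = v - 2 • o) := by
  rcases h with h | h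
  · exact ⟨v, h, Or.inl rfl⟩
  · refine ⟨_, fun i => ?_, Or.inr rfl⟩
    have := h i
    have := ho i
    simp only [AddSubgroup.coe_sub, two_nsmul, AddSubgroup.coe_add, Pi.sub_apply, Pi.add_apply]
    omega

theorem D4.ev (h : D4 v) (h' : D4 w) : Ev v w := by
  have ho : ∀ i, (o3 : GolayPt → ℤ) i % 2 = 1 := by decide
  have c : ∀ {a v : Λ}, (a = v ∨ a = v - 2 • o3) → Cong v a := by
    rintro a v (rfl | rfl)
    exacts [Cong.refl _, ⟨o3, by abel⟩]
  obtain ⟨a, ha, e⟩ := h.dec o3 ho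
  obtain ⟨b, hb, e'⟩ := h'.dec o3 ho
  rw [ev_cong (c e), ev_cong' (c e')]
  exact Finset.dvd_sum fun i _ =>
    mul_dvd_mul (Int.dvd_of_emod_eq_zero (ha i)) (Int.dvd_of_emod_eq_zero (hb i))

theorem d4_of (h : ∀ i j, i ≠ j → Ev v (v44 i j 4 4 rfl rfl)) : D4 v := by
  have k : ∀ i j, i ≠ j → (4 : ℤ) ∣ (v : GolayPt → ℤ) i + (v : GolayPt → ℤ) j := fun i j e => by
    have := h i j e
    rw [Ev, coe_v44, dot_add_right, dot_single_right, dot_single_right] at this
    omega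
  have h1 := k none (some 0) (by decide)
  have h2 := k none (some 1) (by decide)
  have h3 := k (some 0) (some 1) (by decide)
  have k2 : ∀ i, (v : GolayPt → ℤ) i % 4 = (v : GolayPt → ℤ) none % 4 := fun i => by
    by_cases e : none = i
    · rw [e]
    · have := k none i e; omega
  rcases (by omega : (v : GolayPt → ℤ) none % 4 = 0 ∨ (v : GolayPt → ℤ) none % 4 = 2) with e | e
  exacts [Or.inl fun i => (k2 i).trans e, Or.inr fun i => (k2 i).trans e]

theorem d4_v44 (i j : GolayPt) (a b : ℤ) (ha : a % 8 = 4) (hb : b % 8 = 4) : D4 (v44 i j a b ha hb) :=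
  Or.inl fun p => by
    simp only [coe_v44, Pi.add_apply, Pi.single_apply]
    split_ifs <;> omega

theorem ev_u44 (i j : GolayPt) : Ev u (v44 i j 4 4 rfl rfl) :=
  D4.ev (v44_zero ▸ d4_v44 _ _ _ _ _ _) (d4_v44 _ _ _ _ _ _)

theorem D4.add (h : D4 v) (h' : D4 w) : D4 (v + w) :=
  d4_of fun _ _ _ => ev_add.2 (iff_of_true (h.ev (d4_v44 _ _ _ _ _ _)) (h'.ev (d4_v44 _ _ _ _ _ _)))

theorem D4.sim (h : D4 v) (e : Sim w v) : D4 w :=
  d4_of fun i j _ => (e.ev (ev_u44 i j)).2 (h.ev (d4_v44 _ _ _ _ _ _))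

theorem D4.smul (h : D4 v) (hk : k ∈ NN) : D4 (k • v) := by
  obtain ⟨σ, c, rfl⟩ := exists_mono_of_mem_NN hk
  refine h.imp (fun h i => ?_) fun h i => ?_ <;>
  · have := h (σ.1.symm i)
    rw [coe_mono_smul, signedPerm]
    split_ifs <;> omega

theorem sgn_u {C : Golay.Code} (h1 : none ∉ C.1) (h2 : some 0 ∉ C.1) : sgn C • u = u :=
  Subtype.ext (funext fun p => by
    rw [sgn_apply]
    split_ifs with h
    · show -vecU p = vecU p
      rw [vecU, if_neg (by rintro (rfl | rfl); exacts [h1 h, h2 h]), neg_zero]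
    · rfl)

theorem of_sgn_u {C : Golay.Code} (h : sgn C • u = u) : none ∉ C.1 ∧ some 0 ∉ C.1 := by
  have k := fun p => (sgn_apply C u p).symm.trans (congrFun (congrArg Subtype.val h) p)
  refine ⟨fun e => ?_, fun e => ?_⟩
  · have := k none; rw [if_pos e] at this; exact absurd this (by decide)
  · have := k (some 0); rw [if_pos e] at this; exact absurd this (by decide)

theorem odd_all (h : ¬ Ev x (e8 none)) (i : GolayPt) : (x : GolayPt → ℤ) i % 2 = 1 := by
  rw [ev_e8, par x none i] at h; omega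

theorem exists_eps (hx : ¬ Ev x (e8 none)) (hy : ¬ Ev y (e8 none)) (h1 : Ev u x) (h2 : Ev u y) :
    ∃ ε ∈ Sgn, ε • u = u ∧ D4 (ε • x - y) := by
  obtain ⟨m, -, -, hc, -⟩ := (mem_iff' _).1 (x - y).2
  have ox := odd_all hx
  have oy := odd_all hy
  rw [ev_u] at h1 h2
  obtain ⟨C, hC, m⟩ : ∃ C ∈ Golay.Code, ∀ i, i ∈ C ↔
      ((x : GolayPt → ℤ) i - (y : GolayPt → ℤ) i) / 2 % 2 = 1 :=
    ⟨_, (support_mem_supports_iff _).2 hc, fun i => mem_support_red _ i⟩
  have a := ox none; have b := oy none; have a' := ox (some 0); have b' := oy (some 0)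
  by_cases e : none ∈ C
  · refine ⟨sgn ⟨_, Golay.compl_mem_code hC⟩, sgn_mem _, sgn_u (by simpa using e) ?_, Or.inr fun i => ?_⟩
    · simp only [Finset.mem_compl, not_not, m] at e ⊢; omega
    · have := ox i; have := oy i
      rw [AddSubgroup.coe_sub, Pi.sub_apply, sgn_apply]
      simp only [Finset.mem_compl, m]
      split_ifs <;> omega
  · refine ⟨sgn ⟨_, hC⟩, sgn_mem _, sgn_u e ?_, Or.inl fun i => ?_⟩
    · simp only [m] at e ⊢; omega
    · have := ox i; have := oy i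
      rw [AddSubgroup.coe_sub, Pi.sub_apply, sgn_apply]
      simp only [m]
      split_ifs <;> omega

theorem eps_sep {ε : Co0} (hx : ¬ Ev x (e8 none)) (hε : ε ∈ Sgn) (hu : ε • u = u)
    (h : D4 (ε • x - x)) : ε = 1 := by
  obtain ⟨C, rfl⟩ := exists_sgn hε
  have k : ∀ i, ((sgn C • x - x : Λ) : GolayPt → ℤ) i =
      (if i ∈ C.1 then -(x : GolayPt → ℤ) i else (x : GolayPt → ℤ) i) - (x : GolayPt → ℤ) i :=
    fun i => by rw [AddSubgroup.coe_sub, Pi.sub_apply, sgn_apply]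
  rcases h with h | h
  · refine co_ext fun v => Subtype.ext (funext fun i => ?_)
    have := h i
    have := odd_all hx i
    rw [sgn_apply, one_smul, if_neg fun e => by rw [k, if_pos e] at *; omega]
  · have := h none
    rw [k, if_neg (of_sgn_u hu).1] at this
    omega

theorem exists_odd (h0 : Ev u x) (h : ¬ Sim x 0) : ∃ k : Co0, k • u = u ∧ ¬ Ev (k • x) (e8 none) := by
  by_contra! hn
  refine h (sim_of fun v hv => iff_of_true ?_ ev_zero)
  refine Y5.perp_le (dvdDot 16 x) (fun w hw => ?_) (fun w hw => ?_) v.2 hv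
  · show (16 : ℤ) ∣ _
    rw [dot_zsmul_right]
    exact mul_dvd_mul_left 2 (eight_dvd_dot x.2 hw)
  · rw [← orbit_U'] at hw
    obtain ⟨⟨k, hk⟩, rfl⟩ := hw
    have := hn k⁻¹ (inv_mem hk :)
    rw [ev_inv, inv_inv, ← U_add_U', smul_add, show k • u = u from hk, ev_add'] at this
    exact this.1 (ev_comm.1 h0)

end CL.B43
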