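import Cfsg.Agent.SPOR.B43.Lat2
import Cfsg.Agent.S0380
import Cfsg.Agent.S0249

/-!
The monomial stabiliser of the minimal vector; generation and counting.
-/

set_option autoImplicit false
set_option maxRecDepth 100000

namespace CL.B43

open Cfsg Cfsg.Spor CL.Leech CL.MT CL.K CL.Pack MulAction
open CL.Golay (E isCw)

local notation "Λ" => leechLattice
local notation "u" => leechU

variable {x y v w : Λ} {k n ε : Co0} {m : ℕ} {i j : GolayPt}

/-- `n` maps the coordinate `i` to the coordinate `j` -/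
def Ix (n : Co0) (i j : GolayPt) : Prop := n • e8 i = e8 j ∨ n • e8 i = -e8 j

theorem exists_ix (hn : n ∈ NN) (i : GolayPt) : ∃ j, Ix n i j :=
  (mem_stdCross_iff _).1 (hn _ (e8_mem_stdX i))

theorem Ix.mul {l : GolayPt} (h : Ix k j l) (h' : Ix n i j) : Ix (k * n) i l := by
  rw [Ix, mul_smul]
  rcases h' with e | e <;> rcases h with e' | e' <;> simp [e, e', smul_neg]

theorem Ix.inv (h : Ix n i j) : Ix n⁻¹ j i := by
  rw [Ix, inv_smul_eq_iff, inv_smul_eq_iff, smul_neg]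
  rcases h with e | e <;> simp [e]

theorem Ix.inj {l : GolayPt} (h : Ix n i l) (h' : Ix n j l) : i = j := pm_e8_unique h.inv h'.inv

theorem NV_cd (hn : n ∈ NV) : (n • e8 none = e8 none ∧ n • e8 (some 0) = e8 (some 0)) ∨
    (n • e8 none = e8 (some 0) ∧ n • e8 (some 0) = e8 none) := by
  have : n • leechU' ∈ orbit NV leechU' := ⟨⟨n, hn⟩, rfl⟩
  rw [orbit_NV_U'] at this
  rw [← U_add_U', ← U_sub_U', smul_add, smul_sub, show n • u = u from hn.2]
  rcases this with e | e <;> rw [e]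
  · exact Or.inl ⟨rfl, rfl⟩
  · exact Or.inr ⟨(sub_eq_add_neg _ _).symm, sub_neg_eq_add _ _⟩

theorem Ix.gd (h : Ix n i j) (hn : n ∈ NV) (h1 : i ≠ none) (h2 : i ≠ some 0) :
    j ≠ none ∧ j ≠ some 0 := by
  constructor <;> rintro rfl <;> rcases NV_cd hn with e | e
  exacts [h1 (h.inj (Or.inl e.1)), h2 (h.inj (Or.inl e.2)), h2 (h.inj (Or.inl e.2)),
    h1 (h.inj (Or.inl e.1))]

theorem two_inj (h : 2 • x = 2 • y) : x = y :=
  Subtype.ext (funext fun p => by
    have := congrFun (congrArg Subtype.val h) p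
    simp only [two_nsmul, AddSubgroup.coe_add, Pi.add_apply] at this
    omega)

theorem two_u : 2 • u = e8 none + e8 (some 0) := Subtype.ext (funext (by decide +kernel))
theorem two_nv : 2 • nv 0 = e8 none + e8 (some 1) := Subtype.ext (funext (by decide +kernel))
theorem two_ww : 2 • ww = e8 none + e8 (some 0) - e8 (some 2) + e8 (some 3) :=
  Subtype.ext (funext (by decide +kernel))

theorem fix_u (h1 : k • e8 none = e8 none) (h2 : k • e8 (some 0) = e8 (some 0)) : k • u = u :=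
  two_inj (by rw [← smul_nsmul, two_u, smul_add, h1, h2])

theorem fix_ww (h1 : k • e8 none = e8 none) (h2 : k • e8 (some 0) = e8 (some 0))
    (h3 : k • e8 (some 2) = e8 (some 2)) (h4 : k • e8 (some 3) = e8 (some 3)) : k • ww = ww :=
  two_inj (by rw [← smul_nsmul, two_ww, smul_add, smul_sub, smul_add, h1, h2, h3, h4])

theorem fix_cd (hε : ε ∈ Sgn) (hu : ε • u = u) :
    ε • e8 none = e8 none ∧ ε • e8 (some 0) = e8 (some 0) :=
  (NV_cd ⟨Sgn_le_NN hε, hu⟩).resolve_right fun e => absurd (pm_e8_unique (hε none) (Or.inl e.1))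
    (by decide)

theorem fix_of_coord (hε : ε ∈ Sgn) (h : ε • x = x) (h0 : (x : GolayPt → ℤ) i ≠ 0) :
    ε • e8 i = e8 i :=
  (hε i).resolve_right fun e => h0 (by
    have := dot_smul_of_fix h (e8 i)
    rw [e, AddSubgroup.coe_neg, dot_neg_right, coe_e8, dot_single_right] at this
    omega)

theorem perm_u {σ : M24} (h1 : σ.1 none = none) (h2 : σ.1 (some 0) = some 0) : permHom σ • u = u :=
  fix_u (by rw [permHom_e8, h1]) (by rw [permHom_e8, h2])

theorem exists_dec (hn : n ∈ NV) (h : n • e8 none = e8 none) : ∃ ε ∈ Sgn, ε • u = u ∧ ∃ σ : M24,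
    σ.1 none = none ∧ σ.1 (some 0) = some 0 ∧ n = ε * permHom σ ∧ ∀ i j, Ix n i j → σ.1 i = j := by
  obtain ⟨σ, C, rfl⟩ := exists_mono_of_mem_NN hn.1
  have k : ∀ i j, Ix (mono σ C) i j → σ.1 i = j := fun i j e => pm_e8_unique (mono_e8_pm σ C i) e
  have h1 := k _ _ (Or.inl h)
  have h2 := k _ _ (Or.inl ((NV_cd hn).resolve_right fun e => absurd (e8_injective (h.symm.trans e.1))
    (by decide)).2)
  refine ⟨mono σ C * (permHom σ)⁻¹, fun i => ?_, ?_, σ, h1, h2, by group, k⟩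
  · have := mono_e8_pm σ C (σ.1.symm i)
    rwa [mul_smul, ← map_inv, permHom_e8, show (σ⁻¹).1 i = σ.1.symm i from rfl, ← σ.1.apply_symm_apply i,
      σ.1.symm_apply_apply]
  · rw [mul_smul, inv_smul_eq_iff.2 (perm_u h1 h2).symm]; exact hn.2

theorem exists_perm3 (h1 : i ≠ none) (h2 : i ≠ some 0) : ∃ σ : M24,
    σ.1 none = none ∧ σ.1 (some 0) = some 0 ∧ σ.1 (some 1) = i := by
  obtain ⟨g, hg, e⟩ := Golay.exists_map_tuple (k := 3) (by norm_num) ![none, some 0, some 1]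
    ![none, some 0, i] (by decide) (List.nodup_ofFn.1 (by simp [h1.symm, h2.symm]))
  exact ⟨⟨g, hg⟩, e 0, e 1, e 2⟩

theorem exists_perm5 (h1 : i ≠ none) (h2 : i ≠ some 0) (h3 : i ≠ some 2) (h4 : i ≠ some 3) :
    ∃ σ : M24, σ.1 none = none ∧ σ.1 (some 0) = some 0 ∧ σ.1 (some 2) = some 2 ∧
      σ.1 (some 3) = some 3 ∧ σ.1 (some 1) = i := by
  obtain ⟨g, hg, e⟩ := Golay.exists_map_tuple (k := 5) (by norm_num)
    ![none, some 0, some 2, some 3, some 1] ![none, some 0, some 2, some 3, i] (by decide)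
    (List.nodup_ofFn.1 (by simp [h1.symm, h2.symm, h3.symm, h4.symm]; decide))
  exact ⟨⟨g, hg⟩, e 0, e 1, e 2, e 3, e 4⟩

theorem Sgn_comm {δ : Co0} (hε : ε ∈ Sgn) (hδ : δ ∈ Sgn) : ε * δ = δ * ε := by
  have := Sgn_sq (mul_mem hε hδ)
  rw [← inv_eq_of_mul_eq_one_right this, mul_inv_rev, inv_eq_of_mul_eq_one_right (Sgn_sq hε),
    inv_eq_of_mul_eq_one_right (Sgn_sq hδ)]

theorem Sgn_cj (hn : n ∈ NN) (hε : ε ∈ Sgn) : n⁻¹ * ε * n ∈ Sgn := by
  simpa using frame_NN.norm _ (inv_mem hn) _ hε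

theorem perfect_of {G : Type*} [Group G] [IsSimpleGroup G] (h : ¬ (Nat.card G).Prime) :
    commutator G = ⊤ := by
  refine (Subgroup.Normal.eq_bot_or_eq_top inferInstance).resolve_left fun e => h ?_
  let _ : CommGroup G := { ‹Group G› with
    mul_comm := fun a b => commutatorElement_eq_one_iff_mul_comm.1
      (Subgroup.mem_bot.1
        (e.le (Subgroup.commutator_mem_commutator (Subgroup.mem_top a) (Subgroup.mem_top b)))) }
  exact IsSimpleGroup.prime_card

theorem perfect22 : commutator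
    ↥(stabilizer M24 (none : GolayPt) ⊓ stabilizer M24 (some 0 : GolayPt)) = ⊤ := by
  have := Cfsg.Agent.S0379.result (none : GolayPt) (some 0) (by simp)
  exact perfect_of (by rw [Cfsg.Agent.S0378.result _ _ (by simp)]; norm_num)

theorem perfect21 : commutator ↥(stabilizer M24 (none : GolayPt) ⊓ stabilizer M24 (some 0 : GolayPt) ⊓
    stabilizer M24 (some 1 : GolayPt)) = ⊤ := by
  obtain ⟨e⟩ := Cfsg.Agent.S0380.result none (some 0) (some 1) (by simp) (by simp) (by decide) F4 rfl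
  have := Cfsg.Agent.S0249.result (F := F4) 3 le_rfl
  have := e.isSimpleGroup
  exact perfect_of (by rw [Nat.card_congr e.toEquiv, M21.card_PSL]; norm_num)

theorem exists_seven : ∃ π ∈ NV, π • e8 none = e8 none ∧ π • e8 (some 1) = e8 (some 1) ∧
    ∀ ε ∈ Sgn, ε • u = u → ε • e8 (some 1) = e8 (some 1) → (ε * π) ^ 7 = π ^ 7 := by
  obtain ⟨g, hg, r⟩ := Golay.I.of_okM (P := 970294892961777379180069957087482912) (by decide +kernel)
  have ap : ∀ i j, fld 5 31 970294892961777379180069957087482912 (E.enc i) = E.enc j → g i = j :=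
    fun i j e => E.enc_inj.1 ((r i).trans e)
  have f : ∀ i, g i = i → permHom ⟨g, hg⟩ • e8 i = e8 i := fun i e => by
    rw [permHom_e8]; exact congrArg e8 e
  have f1 := f _ (ap none none (by decide +kernel))
  have f2 := f _ (ap (some 0) _ (by decide +kernel))
  have f3 := f _ (ap (some 1) _ (by decide +kernel))
  have hN := permHom_mem_NN ⟨g, hg⟩
  have h7 : permHom ⟨g, hg⟩ ^ 7 = 1 := by
    rw [← map_pow, show (⟨g, hg⟩ : M24) ^ 7 = 1 from Subtype.ext ?_, map_one]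
    show g ^ 7 = 1
    have r2 := Golay.R.mul r r
    have r4 := r2.mul r2
    rw [show g ^ 7 = g * g * (g * g) * (g * g * g) by simp only [pow_succ, pow_zero, one_mul, mul_assoc]]
    exact (r4.comp24_eq_one_iff (r2.mul r)).1 (by decide +kernel)
  refine ⟨_, ⟨hN, fix_u f1 f2⟩, f1, f3, fun ε hε hu h1 => ?_⟩
  have h2 : ∀ n : ℕ, (ε * permHom ⟨g, hg⟩) ^ n * (permHom ⟨g, hg⟩ ^ n)⁻¹ ∈ Sgn := fun n => by
    induction n with
    | zero => simp
    | succ n ih =>
      have := mul_mem hε (frame_NN.norm _ hN _ ih)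
      rwa [pow_succ', pow_succ', mul_inv_rev, mul_assoc (ε * _), ← mul_assoc (_ ^ n), mul_assoc ε,
        ← mul_assoc (permHom _)]
  have h3 := h2 7
  rw [h7, inv_one, mul_one] at h3
  rw [h7]
  have c : Commute ((ε * permHom ⟨g, hg⟩) ^ 7) (permHom ⟨g, hg⟩) := by
    have := (show Commute _ ε from Sgn_comm h3 hε).inv_right.mul_right
      (Commute.pow_self (ε * permHom ⟨g, hg⟩) 7)
    rwa [inv_mul_cancel_left] at this
  have fx : ∀ i, ε • e8 i = e8 i → permHom ⟨g, hg⟩ • e8 i = e8 i →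
      (ε * permHom ⟨g, hg⟩) ^ 7 • e8 i = e8 i := fun i a b =>
    pow_mem (mul_mem (show ε ∈ stabilizer Co0 (e8 i) from a) b) 7
  have a1 := fx _ (fix_cd hε hu).1 f1
  have a2 := fx _ (fix_cd hε hu).2 f2
  have a3 := fx _ h1 f3
  generalize (ε * permHom ⟨g, hg⟩) ^ 7 = N at h3 c a1 a2 a3
  obtain ⟨⟨C, hC⟩, rfl⟩ := exists_sgn h3
  obtain ⟨a, ha, rfl⟩ := Golay.mem_code_iff.1 hC
  have b : ∀ i, sgn ⟨_, hC⟩ • e8 i = e8 i ↔ (Golay.cw a).testBit (E.enc i) = false := fun i => by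
    rw [sgn, mono_e8, ← Bool.not_eq_true, ← E.mem_setOf]
    split_ifs with e
    exacts [iff_of_false (e8_ne_neg _ _).symm (not_not.2 e), iff_of_true rfl e]
  have k : ∀ a < 4096, force (Golay.cw a) (fun c => c.testBit 23 || c.testBit 0 || c.testBit 1 ||
      Nat.beq c 0 || anyLt (fun e => c.testBit (fld 5 31 970294892961777379180069957087482912 e) !=
        c.testBit e) 24) = true := allLt_iff.1 (by decide +kernel)
  have := k a ha
  simp only [force_eq, Bool.or_eq_true, anyLt_iff, Nat.beq_eq, bne_iff_ne] at this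
  rcases this with (((e | e) | e) | e) | ⟨e, he, h⟩
  · exact absurd e (ne_true_of_eq_false ((b _).1 a1))
  · exact absurd e (ne_true_of_eq_false ((b _).1 a2))
  · exact absurd e (ne_true_of_eq_false ((b _).1 a3))
  · exact co_ext_e8 fun i => by rw [one_smul, b, e, Nat.zero_testBit]
  · refine absurd ?_ h
    rw [← E.enc_dec e he, ← r, ← Bool.not_inj_iff, Bool.eq_iff_iff]
    simp only [Bool.not_eq_true', ← b]
    rw [show e8 (g (E.dec e)) = permHom ⟨g, hg⟩ • e8 (E.dec e) from (permHom_e8 ⟨g, hg⟩ _).symm,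
      smul_smul, c.eq, mul_smul, smul_left_cancel_iff]

theorem nv_mem : nv 0 ∈ Mset u 16 ∧ nv 1 ∈ Mset u 16 ∧ nv 2 ∈ Mset u 16 := by
  unfold Mset; decide +kernel

theorem M_cases (hy : y ∈ Mset u 16) : ∃ n ∈ NV, y = n • nv 0 ∨ y = n • nv 1 ∨ y = n • nv 2 := by
  obtain ⟨i, hi⟩ := nv_tight.1 y hy.1
  have e := (inv_of_mem_orbit hi).2.1.symm.trans hy.2
  obtain ⟨⟨n, hn⟩, rfl⟩ := hi
  refine ⟨n, hn, ?_⟩
  rcases (by decide : ∀ i, nvD i = 16 → i = 0 ∨ i = 1 ∨ i = 2) i e with rfl | rfl | rfl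
  exacts [Or.inl rfl, Or.inr (Or.inl rfl), Or.inr (Or.inr rfl)]

theorem M_trans (hy : y ∈ Mset u 16) : ∃ k : Co0, k • u = u ∧ k • nv 0 = y :=
  pair_trans sqNorm_U nv_mem.1.1 sqNorm_U hy.1 (nv_mem.1.2.trans hy.2.symm)

theorem nv_d4 : D4 (nv 0) ∧ ¬ D4 (nv 1) ∧ ¬ D4 (nv 2) := by unfold D4; decide +kernel

theorem nv_odd : Ev (nv 1) (e8 none) ∧ ¬ Ev (nv 2) (e8 none) := by
  rw [ev_e8, ev_e8]; decide +kernel

theorem D4.of_smul (hn : n ∈ NN) (h : D4 (n • x)) : D4 x := by simpa using h.smul (inv_mem hn)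

theorem not_OK_e8 : ¬ OK (e8 none) := not_OK (sqNorm_e8 _) (Sim.refl _)

theorem not_OK_nv1 (h : Sim x (nv 1 + e8 none)) : ¬ OK x :=
  not_OK (y := nv 1 - e8 none) (by decide +kernel) (h.trans (Or.inl (cong_sub _ _).symm))

theorem sT_nv : sT • nv 0 = nv 0 - e8 (some 1) := act rep_T (by decide +kernel)

theorem sT_e8 : sT • e8 (some 1) = -e8 (some 1) := by
  rw [sg_e8 (by decide +kernel), if_pos (by decide +kernel)]

theorem eps_nv (hε : ε ∈ Sgn) (hu : ε • u = u) : (ε • e8 (some 1) = e8 (some 1) → ε • nv 0 = nv 0) ∧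
    (ε • e8 (some 1) = -e8 (some 1) → ε • nv 0 = sT • nv 0) :=
  ⟨fun h => two_inj (by rw [← smul_nsmul, two_nv, smul_add, h, (fix_cd hε hu).1]),
    fun h => two_inj (by rw [← smul_nsmul, ← smul_nsmul, two_nv, smul_add, smul_add, h,
      (fix_cd hε hu).1, (fix_cd (sg_mem _) sT_u).1, sT_e8])⟩

theorem cong_nv : Cong (nv 0 + e8 none) (sT • nv 0) :=
  sT_nv ▸ ((Cong.refl _).add (cong_e8 _ _)).trans (cong_sub _ _).symm

theorem not_sim_nv : ¬ Sim (sT • nv 0) (nv 0) := fun h =>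
  absurd (h.eq (smul_mem_Mset sT_u nv_mem.1) nv_mem.1) (by rw [sT_nv]; decide +kernel)

theorem s0_nv : (sT * ss) • nv 0 = u - nv 0 :=
  act (rep_T.mul ((rep_k.mul rep_D).mul rep_k)) (by decide +kernel)

theorem card_inf_ge (H : Subgroup Co0) (x : Λ) {T : Set Λ} (hT : T.Finite) {a b : ℕ} (h : T.ncard ≤ a)
    (ho : ∀ g ∈ H, g • x ∈ T) (hc : a * b ≤ Nat.card H) (ha : 0 < a) :
    b ≤ Nat.card ↥(H ⊓ stabilizer Co0 x) := by
  have h1 := (Set.ncard_le_ncard (s := orbit H x) (by rintro _ ⟨⟨g, hg⟩, rfl⟩; exact ho g hg) hT).trans h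
  rw [card_eq_orbit_mul H x] at hc
  exact Nat.le_of_mul_le_mul_left (hc.trans (Nat.mul_le_mul_right _ h1)) ha

theorem card_E : 1024 ≤ Nat.card ↥(Sgn ⊓ stabilizer Co0 u) := by
  refine card_inf_ge Sgn u (T := {u, -u, leechU', -leechU'}) (Set.toFinite _) (a := 4)
    ((Set.ncard_insert_le _ _).trans (Nat.succ_le_succ ((Set.ncard_insert_le _ _).trans
      (Nat.succ_le_succ ((Set.ncard_insert_le _ _).trans (by simp)))))) (fun g hg => ?_) (by rw [card_Sgn]; norm_num)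
    (by norm_num)
  have h := smul_nsmul g 2 u
  rw [two_u, smul_add] at h
  rcases hg none with e | e <;> rcases hg (some 0) with e' | e' <;> rw [e, e'] at h
  · exact Or.inl (two_inj (h.symm.trans (by decide +kernel)))
  · exact Or.inr (Or.inr (Or.inl (two_inj (h.symm.trans (by decide +kernel)))))
  · exact Or.inr (Or.inr (Or.inr (two_inj (h.symm.trans (by decide +kernel)))))
  · exact Or.inr (Or.inl (two_inj (h.symm.trans (by decide +kernel))))

theorem exists_E : ∃ s : Finset Co0, 1024 ≤ s.card ∧ ∀ ε ∈ s, ε ∈ Sgn ∧ ε • u = u :=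
  ⟨(Set.toFinite (Sgn ⊓ stabilizer Co0 u : Subgroup Co0).carrier).toFinset, by
    rw [← Set.ncard_eq_toFinset_card]; exact card_E, fun ε h => Subgroup.mem_inf.1 ((Set.Finite.mem_toFinset _).1 h)⟩

theorem exists_M : ∃ s : Finset Λ, 2300 ≤ s.card ∧ (∀ x ∈ s, x ∈ Mset u 16) ∧
    ∀ x ∈ s, ∀ y ∈ s, Sim x y → x = y := by
  classical
  obtain ⟨f, hf⟩ := exists_injective_nat Λ
  let T := (finite_Mset u 16).toFinset
  have hT : ∀ {x}, x ∈ T ↔ x ∈ Mset u 16 := Set.Finite.mem_toFinset _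
  have c : T.card = 4600 := by
    rw [← Set.ncard_eq_toFinset_card _ (finite_Mset u 16), Mset, census sqNorm_U, censusN_16]
  refine ⟨T.filter fun x => f x ≤ f (u - x), ?_, fun x hx => hT.1 (Finset.mem_filter.1 hx).1,
    fun x hx y hy h => ?_⟩
  · have h1 : T ⊆ (T.filter fun x => f x ≤ f (u - x)) ∪ (T.filter fun x => f x ≤ f (u - x)).image (u - ·) :=
      fun x hx => by
        rcases le_total (f x) (f (u - x)) with e | e
        · exact Finset.mem_union_left _ (Finset.mem_filter.2 ⟨hx, e⟩)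
        · exact Finset.mem_union_right _ (Finset.mem_image.2 ⟨u - x, Finset.mem_filter.2
            ⟨hT.2 (sub_mem_M (hT.1 hx)), by rwa [sub_sub_cancel]⟩, sub_sub_cancel _ _⟩)
    have h2 := (Finset.card_le_card h1).trans ((Finset.card_union_le _ _).trans
      (Nat.add_le_add_left Finset.card_image_le _))
    omega
  · rw [Finset.mem_filter] at hx hy
    rcases h.eq (hT.1 hx.1) (hT.1 hy.1) with e | e
    · exact e
    · exact hf (le_antisymm (by simpa [e] using hx.2) (e ▸ hy.2))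

theorem gen_S {L : Subgroup Co0} (h1 : NV ≤ L) (hL : L ≤ stabilizer Co0 u) (hk : kk ∈ L) :
    stabilizer Co0 u ≤ L := by
  classical
  have h93 : (orbit (stabilizer Co0 u) leechU').ncard = 93150 := by
    rw [orbit_U', Mset, census sqNorm_U, censusN_0]
  have hdvd := ncard_orbit_dvd_of_le hL (stab_U_U'_le.trans h1)
  have hsub : orbit L leechU' ⊆ Mset u 0 := by
    rw [← orbit_U']
    rintro _ ⟨⟨g, hg⟩, rfl⟩; exact ⟨⟨g, hL hg⟩, rfl⟩
  have h7 : ∀ i, nvD i = 0 → i = 6 ∨ i = 7 ∨ i = 8 ∨ i = 9 ∨ i = 10 := by decide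
  set O := orbit L leechU' with hO
  have h6 := ncard_of_NV (T := O) (fun y hy => (hsub hy).1)
    (fun g hg y hy => smul_mem_orbit (h1 hg) hy)
    (fun i => i = 6 ∨ (i = 7 ∧ nv 7 ∈ O) ∨ (i = 8 ∧ nv 8 ∈ O) ∨ (i = 9 ∧ nv 9 ∈ O) ∨
      (i = 10 ∧ nv 10 ∈ O)) (fun i => by
    constructor
    · rintro (rfl | ⟨rfl, h⟩ | ⟨rfl, h⟩ | ⟨rfl, h⟩ | ⟨rfl, h⟩)
      exacts [nv6_eq ▸ mem_orbit_self _, h, h, h, h]
    · intro h
      rcases h7 i ((nv_inv i).2.1.symm.trans (hsub h).2) with rfl | rfl | rfl | rfl | rfl <;>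
        simp [h])
  have h8 : O.ncard = 2 ∨ O.ncard = 93150 := by
    rw [h93, h6] at hdvd
    rw [h6]
    by_cases a7 : nv 7 ∈ O <;> by_cases a8 : nv 8 ∈ O <;> by_cases a9 : nv 9 ∈ O <;>
      by_cases a10 : nv 10 ∈ O <;>
      simp only [a7, a8, a9, a10, and_true, and_false, false_or, or_false] at hdvd ⊢ <;>
      first
      | exact absurd hdvd (by decide +kernel)
      | decide +kernel
  rcases h8 with h8 | h8
  · have h9 : orbit NV leechU' = O := by
      apply Set.eq_of_subset_of_ncard_le _ _ (finite_orbit _ _)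
      · rintro _ ⟨⟨g, hg⟩, rfl⟩; exact ⟨⟨g, h1 hg⟩, rfl⟩
      · rw [h8, orbit_NV_U', Set.ncard_pair (by decide +kernel)]
    have : kk • leechU' ∈ O := ⟨⟨kk, hk⟩, rfl⟩
    rw [← h9, orbit_NV_U'] at this
    exact (this.elim kk_u'.1 kk_u'.2).elim
  · intro g hg
    obtain ⟨⟨n, hn⟩, e⟩ : g • leechU' ∈ O := by
      rw [Set.eq_of_subset_of_ncard_le hsub (by rw [← orbit_U', h93, h8]) (finite_Mset _ _), ← orbit_U']
      exact ⟨⟨g, hg⟩, rfl⟩
    have := mul_mem hn (h1 (stab_U_U'_le (x := n⁻¹ * g) ⟨(mul_mem (inv_mem (hL hn)) hg :), by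
      show (n⁻¹ * g) • leechU' = leechU'
      rw [mul_smul, ← show n • leechU' = g • leechU' from e, inv_smul_smul]⟩))
    rwa [mul_inv_cancel_left] at this

/-- an odd minimal vector orthogonal to the fixed vector -/
noncomputable def w1 : Λ :=
  lv 0x4802401200900480240120090048024012007004801c0120090038024012007003801c016007 (by decide +kernel)

theorem exists_w1 : ∃ g : Co0, g • u = u ∧ g • nv 0 = nv 0 ∧ g • leechU' = w1 := by
  obtain ⟨⟨k, hk⟩, e⟩ : w1 ∈ orbit (stabilizer Co0 u) leechU' := by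
    rw [orbit_U']; unfold Mset; decide +kernel
  replace e : k • leechU' = w1 := e
  obtain ⟨n, hn, h⟩ := M_cases (smul_mem_Mset (inv_mem hk :) nv_mem.1)
  have h1 : dotInt ((k⁻¹ • nv 0 : Λ) : GolayPt → ℤ) leechU' = 16 := by
    rw [← dot_smul k, smul_inv_smul, e]; decide +kernel
  have h2 : n⁻¹ • leechU' ∈ orbit NV leechU' := ⟨⟨_, inv_mem hn⟩, rfl⟩
  have h3 : ∀ x : Λ, dotInt ((n • x : Λ) : GolayPt → ℤ) leechU' =
      dotInt (x : GolayPt → ℤ) (n⁻¹ • leechU' : Λ) := fun x => by rw [← dot_smul n x, smul_inv_smul]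
  rw [orbit_NV_U'] at h2
  rcases h with h | h | h <;> rw [h, h3] at h1 <;> rcases h2 with h2 | h2 <;> rw [h2] at h1 <;>
    first
    | exact absurd h1 (by decide +kernel)
    | exact ⟨k * n, by rw [mul_smul, show n • u = u from hn.2]; exact hk, by
        rw [mul_smul, ← h, smul_inv_smul], by rw [mul_smul, ← inv_smul_eq_iff.1 h2, e]⟩

theorem U6 {N : Subgroup Co0} (hN : Nm (stabilizer Co0 u ⊓ stabilizer Co0 (nv 0)) N)
    (h : ∀ n ∈ NV, n • e8 none = e8 none → n • nv 0 = nv 0 → n ∈ N) :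
    N = stabilizer Co0 u ⊓ stabilizer Co0 (nv 0) := by
  have hT : stabilizer Co0 u ⊓ stabilizer Co0 (nv 0) ⊓ stabilizer Co0 leechU' ≤ N := fun n hn =>
    h n (stab_U_U'_le ⟨hn.1.1, hn.2⟩) (by
      rw [← U_add_U', smul_add, show n • u = u from hn.1.1, show n • leechU' = leechU' from hn.2]) hn.1.2
  have c1 := card_stab_pair sqNorm_U nv_mem.1.1
  have c2 := card_stab_pair sqNorm_U sqNorm_U'
  rw [nv_mem.1.2, censusN_16] at c1
  rw [Y5.dot_U_U', censusN_0] at c2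
  have hi : Set.InjOn (fun y : Λ => 2 • y - e8 none) {y | 2 • y - e8 none ∈ stdX} :=
    fun a _ b _ e => two_inj (sub_left_injective e)
  have c3 := card_inf_ge (stabilizer Co0 u ⊓ stabilizer Co0 leechU') (nv 0)
    (T := {y | 2 • y - e8 none ∈ stdX})
    (Set.Finite.of_injOn (f := fun y : Λ => 2 • y - e8 none) (fun _ h => h) hi finite_stdX) (a := 48)
    (b := 9461760) ((Set.ncard_le_ncard_of_injOn (fun y : Λ => 2 • y - e8 none) (fun _ h => h) hi
      finite_stdX).trans ncard_stdX.le)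
    (fun g hg => by
      show 2 • g • nv 0 - e8 none ∈ stdX
      rw [← smul_nsmul, two_nv, smul_add, ← U_add_U', smul_add, show g • u = u from hg.1,
        show g • leechU' = leechU' from hg.2, add_sub_cancel_left]
      exact (stab_U_U'_le hg).1 _ (e8_mem_stdX _)) (by omega) (by norm_num)
  obtain ⟨g, g1, g2, g3⟩ := exists_w1
  have cj := ((conj_stab g u).inf (conj_stab g (nv 0))).inf (conj_stab g leechU')
  rw [g1, g2, g3, inf_right_comm _ _ (stabilizer Co0 leechU')] at cj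
  have c4 := card_eq_orbit_mul (stabilizer Co0 u ⊓ stabilizer Co0 (nv 0)) w1
  rw [cj.card] at c4
  have c5 := card_inf_ge (Sgn ⊓ stabilizer Co0 u) (nv 0) (T := {nv 0, sT • nv 0}) (Set.toFinite _)
    (a := 2) (b := 512) ((Set.ncard_insert_le _ _).trans (by simp))
    (fun ε hε => (hε.1 (some 1)).imp (eps_nv hε.1 hε.2).1 (eps_nv hε.1 hε.2).2) card_E (by norm_num)
  have c6 := card_eq_orbit_mul (Sgn ⊓ stabilizer Co0 u ⊓ stabilizer Co0 (nv 0)) w1
  rw [show Sgn ⊓ stabilizer Co0 u ⊓ stabilizer Co0 (nv 0) ⊓ stabilizer Co0 w1 = ⊥ from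
    eq_bot_iff.2 fun ε hε => co_ext_e8 fun i => (fix_of_coord hε.1.1.1 hε.2 (by
      revert i; decide +kernel)).trans (one_smul _ _).symm, Subgroup.card_bot, mul_one] at c6
  have c7 : (orbit ↥(Sgn ⊓ stabilizer Co0 u ⊓ stabilizer Co0 (nv 0)) w1).ncard ≤ (orbit N w1).ncard :=
    Set.ncard_le_ncard (by
      rintro _ ⟨⟨ε, hε⟩, rfl⟩
      exact ⟨⟨ε, h ε ⟨Sgn_le_NN hε.1.1, hε.1.2⟩ (fix_cd hε.1.1 hε.1.2).1 hε.2⟩, rfl⟩) (finite_orbit _ _)
  obtain ⟨a, ha⟩ := hN.orbit_dvd w1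
  have c8 : (orbit ↥(stabilizer Co0 u ⊓ stabilizer Co0 (nv 0)) w1).ncard ≤ 972 := by
    by_contra! e
    have := Nat.mul_le_mul e c3
    omega
  have c9 := one_le_orbit (stabilizer Co0 u ⊓ stabilizer Co0 (nv 0)) w1
  refine hN.eq_of_trans (x := w1) (Set.eq_of_subset_of_ncard_le (by
    rintro _ ⟨⟨n, hn⟩, rfl⟩; exact ⟨⟨n, hN.le hn⟩, rfl⟩) ?_ (finite_orbit _ _)) fun n hn => ?_
  · rcases a with _ | _ | a
    · omega
    · omega
    · nlinarith
  · have := (cj n).1 hn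
    simpa [mul_assoc] using hN.conj g ⟨g1, g2⟩ _ (hT ⟨⟨this.1.1, this.2⟩, this.1.2⟩)

end CL.B43
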